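import Cfsg.Agent.H18.CoOne.Data
import Cfsg.Agent.H14.Co1Simple
import Cfsg.Agent.H5.OmegaForms
import Cfsg.Agent.H5.OmegaCriterion
import Cfsg.Agent.S0287

/-! The centraliser of the sign change at the octad and its action on the sublattice modulo 2. -/

set_option autoImplicit false

namespace Cfsg.Agent.H18.CoOne

open Cfsg.Agent Finset H14
open scoped Pointwise

/-- The quadratic form. -/
abbrev Q8 : QuadraticForm (ZMod 2) F8 := H5.qPlus 4 (ZMod 2)

/-- The sign change at the octad. -/
def e0 : Co0 := signAut (ind O) (octad_ind_mem O_mem)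

/-- Its centraliser. -/
abbrev Ce : Subgroup Co0 := Subgroup.centralizer ({e0} : Set Co0)

theorem comm_of_mem {g : Co0} (hg : g ∈ Ce) : g * e0 = e0 * g :=
  Subgroup.mem_centralizer_singleton_iff.1 hg

theorem act_e0_mem8 {x : V} (hx : Mem8 x) : act e0 x = -x := by
  rw [e0, act_signAut _ hx.1]
  funext p
  by_cases hp : p ∈ O
  · simp [signFun, hp]
  · simp [signFun, hp, hx.2 p hp]

theorem mem8_of_act_e0 {x : V} (hx : IsLeech x) (h : act e0 x = -x) : Mem8 x := by
  refine ⟨hx, fun p hp => ?_⟩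
  have := congrFun h p
  rw [e0, act_signAut _ hx] at this
  simp [signFun, hp] at this
  omega

theorem off_of_act_e0 {x : V} (hx : IsLeech x) (h : act e0 x = x) : ∀ p ∈ O, x p = 0 := by
  intro p hp
  have := congrFun h p
  rw [e0, act_signAut _ hx] at this
  simp [signFun, hp] at this
  omega

theorem Mem8.act {g : Co0} (hg : g ∈ Ce) {x : V} (hx : Mem8 x) : Mem8 (H14.act g x) := by
  refine mem8_of_act_e0 (isLeech_act g hx.1) ?_
  rw [← mul_act, ← comm_of_mem hg, mul_act, act_e0_mem8 hx, act_neg g hx.1]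

theorem red_act_congr {g : Co0} (hg : g ∈ Ce) {x y : V} (hx : Mem8 x) (hy : Mem8 y)
    (h : red x = red y) : red (act g x) = red (act g y) := by
  obtain ⟨z, hz, e⟩ := exists_two_of_red_eq hx hy h
  have h2 : red (act g x - act g y) = 0 := by
    rw [← act_sub g hx.1 hy.1, e, act_two_smul g hz.1]
    exact red_two (hz.act hg)
  rw [red_sub (hx.act hg) (hy.act hg)] at h2
  funext j
  exact CharTwo.add_eq_zero.1 (congrFun h2 j)

/-- The map induced on coordinates. -/
noncomputable def indFun (g : Co0) (v : F8) : F8 := red (act g (lift8 v))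

theorem red_act {g : Co0} (hg : g ∈ Ce) {x : V} (hx : Mem8 x) :
    red (act g x) = indFun g (red x) :=
  red_act_congr hg hx (mem8_lift _) (red_lift _).symm

theorem indFun_add {g : Co0} (hg : g ∈ Ce) (v w : F8) :
    indFun g (v + w) = indFun g v + indFun g w := by
  have h := red_act hg ((mem8_lift v).add (mem8_lift w))
  rw [red_add (mem8_lift v) (mem8_lift w), red_lift, red_lift] at h
  rw [← h, act_add g (mem8_lift v).1 (mem8_lift w).1,
    red_add ((mem8_lift v).act hg) ((mem8_lift w).act hg)]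
  rfl

theorem indFun_mul {g h : Co0} (hg : g ∈ Ce) (hh : h ∈ Ce) (v : F8) :
    indFun (g * h) v = indFun g (indFun h v) := by
  rw [indFun, mul_act, red_act hg ((mem8_lift v).act hh)]; rfl

theorem indFun_one (v : F8) : indFun 1 v = v := by
  rw [indFun, one_act, red_lift]

theorem indFun_q {g : Co0} (hg : g ∈ Ce) (v : F8) : Q8 (indFun g v) = Q8 v := by
  have h1 := q_red ((mem8_lift v).act hg)
  have h2 := q_red (mem8_lift v)
  rw [sqNorm_act g (mem8_lift v).1, h2, red_lift] at h1
  rw [show (⇑Q8) = Cfsg.quadFormPlus 4 (ZMod 2) from H5.coe_qPlus 4]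
  exact h1.symm

/-- The linear map induced by an element of the centraliser. -/
noncomputable def indEquiv (g : Ce) : F8 ≃ₗ[ZMod 2] F8 :=
  { (AddMonoidHom.mk' (indFun g.1) (indFun_add g.2)).toZModLinearMap 2 with
    invFun := indFun g.1⁻¹
    left_inv := fun v => by
      show indFun g.1⁻¹ (indFun g.1 v) = v
      rw [← indFun_mul (inv_mem g.2) g.2, inv_mul_cancel, indFun_one]
    right_inv := fun v => by
      show indFun g.1 (indFun g.1⁻¹ v) = v
      rw [← indFun_mul g.2 (inv_mem g.2), mul_inv_cancel, indFun_one] }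

theorem indEquiv_apply (g : Ce) (v : F8) : indEquiv g v = indFun g.1 v := rfl

/-- The representation on the sublattice modulo 2. -/
noncomputable def psi : Ce →* H5.orth Q8 :=
  MonoidHom.mk' (fun g => ⟨indEquiv g, fun v => indFun_q g.2 v⟩)
    fun g h => H5.orth_ext fun v => indFun_mul g.2 h.2 v

theorem psi_apply (g : Ce) (v : F8) : (psi g : F8 ≃ₗ[ZMod 2] F8) v = indFun g.1 v := rfl

theorem mem_ker_psi {g : Ce} : g ∈ psi.ker ↔ ∀ v, indFun g.1 v = v := by
  rw [MonoidHom.mem_ker]
  exact ⟨fun h v => by rw [← psi_apply, h]; rfl, fun h => H5.orth_ext fun v => h v⟩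

theorem mem_Ce_mono_iff {σ : Equiv.Perm GolayPt} (hσ : σ ∈ M24) {c : GolayPt → ZMod 2}
    (hc : c ∈ golayCode) : monoAut σ hσ c hc ∈ Ce ↔ σ • O = O := by
  constructor
  · intro h
    refine eq_of_subset_of_card_le (fun p hp => ?_) (card_smul_finset σ O).ge
    obtain ⟨q, hq, rfl⟩ := mem_smul_finset.1 hp
    by_contra hne
    have h2 := ((mem8_eight hq).act h).2 _ hne
    rw [act_monoAut hσ hc (isLeech_eight q), permFun_eight, signFun_eight] at h2
    by_cases e : c (σ q) = 0 <;> simp [e, eight, Equiv.Perm.smul_def] at h2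
  · intro h
    rw [Subgroup.mem_centralizer_singleton_iff]
    refine act_eq_of_forall fun x hx => ?_
    rw [mul_act, mul_act, e0, act_signAut _ hx, act_monoAut hσ hc (hx.signFun (octad_ind_mem O_mem)),
      act_monoAut hσ hc hx, act_signAut _ (((hx.permFun hσ)).signFun hc)]
    funext i
    have : σ.symm i ∈ O ↔ i ∈ O := by
      have := H11.apply_mem_iff_of_smul_eq h (σ.symm i)
      rw [Equiv.apply_symm_apply] at this
      exact this.symm
    by_cases hi : i ∈ O <;> by_cases hci : c i = 0 <;>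
      simp [signFun, permFun, hi, hci, this]

/-- The part of the centraliser inside the monomial group. -/
theorem card_cross_part : Nat.card (crossStab.subgroupOf Ce) = 4096 * 322560 := by
  rw [← H11.card_stabM24_octad O_mem, ← H9.golayCode_natCard, ← Nat.card_prod]
  refine (Nat.card_congr (Equiv.ofBijective
    (fun p : golayCode × H11.stabM24 O =>
      (⟨⟨monoAut p.2.1 p.2.2.1 p.1.1 p.1.2,
        (mem_Ce_mono_iff p.2.2.1 p.1.2).2 p.2.2.2⟩, monoAut_mem _ _ _ _⟩ : crossStab.subgroupOf Ce))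
    ⟨fun a b e => ?_, fun g => ?_⟩)).symm
  · obtain ⟨h1, h2⟩ := monoAut_injective (congrArg (fun x => x.1.1) e)
    exact Prod.ext (Subtype.ext h2) (Subtype.ext h1)
  · obtain ⟨σ, hσ, c, hc, e⟩ := exists_mono g.2
    have hg : (g.1 : Co0) ∈ Ce := g.1.2
    exact ⟨(⟨c, hc⟩, ⟨σ, hσ, (mem_Ce_mono_iff hσ hc).1 (e ▸ hg)⟩),
      Subtype.ext (Subtype.ext e.symm)⟩

/-- Congruent vectors of squared length 64 give the same cross. -/
theorem cross_eq_of_red {x y : V} (hx : Mem8 x) (hy : Mem8 y) (h : red x = red y)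
    (hnx : sqNorm x = 64) (hny : sqNorm y = 64) : cross y = cross x := by
  obtain ⟨z, hz, e⟩ := exists_two_of_red_eq hx hy h
  exact cross_eq_of_mem (mem_cross_iff.2 ⟨hy.1, hny.trans hnx.symm, z, hz.1, e⟩)

theorem mem_crossStab_of_cross {g : Co0} {p : GolayPt} (h : cross (act g (eight p)) = stdCross) :
    g ∈ crossStab := by
  show act g '' stdCross = stdCross
  rw [← cross_eight p, ← cross_act g (isLeech_eight p), h, cross_eight]

/-- The orbit of the standard cross has at most 135 members. -/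
theorem index_le : (crossStab.subgroupOf Ce).index ≤ 135 := by
  have hmem : ∀ g : Ce, red (act g.1 (eight (emb 0))) ∈
      univ.filter fun v : F8 => v ≠ 0 ∧ Cfsg.quadFormPlus 4 (ZMod 2) v = 0 := by
    intro g
    refine mem_filter.2 ⟨mem_univ _, fun h => ?_, ?_⟩
    · have h2 : red (act g.1⁻¹ (act g.1 (eight (emb 0)))) = red (act g.1⁻¹ 0) :=
        red_act_congr (inv_mem g.2) ((mem8_eight (emb_mem 0)).act g.2) mem8_zero
          (h.trans red_zero.symm)
      rw [inv_act_act, act_zero, red_zero] at h2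
      revert h2
      decide +kernel
    · rw [← q_red ((mem8_eight (emb_mem 0)).act g.2), sqNorm_act g.1 (isLeech_eight _),
        sqNorm_eight]
      rfl
  rw [Subgroup.index, ← card_singular, ← Nat.card_eq_finsetCard]
  refine Nat.card_le_card_of_injective
    (fun q => ⟨_, hmem (Quotient.out q)⟩) fun a b h => ?_
  set g := Quotient.out a with hg
  set k := Quotient.out b with hk
  have hc := cross_eq_of_red ((mem8_eight (emb_mem 0)).act g.2) ((mem8_eight (emb_mem 0)).act k.2)
    (congrArg Subtype.val h) (by rw [sqNorm_act _ (isLeech_eight _), sqNorm_eight])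
    (by rw [sqNorm_act _ (isLeech_eight _), sqNorm_eight])
  rw [← Quotient.out_eq a, ← Quotient.out_eq b]
  refine Quotient.sound (QuotientGroup.leftRel_apply.2 ?_)
  refine mem_crossStab_of_cross (p := emb 0) ?_
  show cross (act (g.1⁻¹ * k.1) (eight (emb 0))) = stdCross
  rw [mul_act, cross_act _ (isLeech_act _ (isLeech_eight _)), hc,
    ← cross_act _ (isLeech_act _ (isLeech_eight _)), inv_act_act, cross_eight]

/-- A sextet map compatible with the octad commutes with the sign change. -/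
theorem xiAut_mem_Ce (S : Sextet) (n : Fin 6) (h : ∀ i j, S.lab i = S.lab j → (i ∈ O ↔ j ∈ O)) :
    S.xiAut n ∈ Ce := by
  rw [Subgroup.mem_centralizer_singleton_iff]
  refine act_eq_of_forall fun x hx => ?_
  rw [mul_act, mul_act, e0, act_signAut _ hx, act_xiAut S n (hx.signFun (octad_ind_mem O_mem)), act_xiAut S n hx,
    act_signAut _ (S.isLeech_xiFun hx n)]
  funext i
  obtain ⟨k, hk⟩ := S.two_dvd_fsum hx (S.lab i)
  have hs : S.fsum (signFun (ind O) x) (S.lab i) =
      (if i ∈ O then -1 else 1) * S.fsum x (S.lab i) := by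
    unfold Sextet.fsum
    rw [mul_sum]
    refine sum_congr rfl fun j hj => ?_
    have := h j i (mem_filter.1 hj).2
    by_cases hi : i ∈ O <;> simp [signFun, hi, this]
  unfold Sextet.xiFun
  rw [hs]
  simp only [signFun]
  rw [hk]
  by_cases hi : i ∈ O <;> by_cases hn : S.lab i = n
  all_goals simp only [ind_apply, hi, hn, if_true, if_false, one_ne_zero]
  all_goals omega

/-- A sextet with a tetrad in the octad splits the octad into two tetrads. -/
theorem sextet_compatible (S : Sextet) {T : Finset GolayPt} (hT : ∀ i, S.lab i = 0 ↔ i ∈ T)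
    (hTO : T ⊆ O) : ∀ i j, S.lab i = S.lab j → (i ∈ O ↔ j ∈ O) := by
  have key : ∀ i j, S.lab i = S.lab j → i ∈ O → j ∈ O := by
    intro i j he hi
    by_cases h0 : S.lab i = 0
    · exact hTO ((hT j).1 (he ▸ h0))
    by_contra hj
    set u := S.lab i with hu
    set U := univ.filter fun p => S.lab p = u with hU
    have hTc : T = univ.filter fun p => S.lab p = 0 := by ext p; simp [hT p]
    have hTu : Disjoint T U := by
      rw [disjoint_left]
      intro p hp hpU
      exact h0 ((mem_filter.1 hpU).2.symm.trans ((hT p).2 hp))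
    have hw : ind O + (fun p => (if S.lab p = 0 then (1 : ZMod 2) else 0) +
        (if S.lab p = u then 1 else 0)) ∈ golayCode :=
      add_mem (octad_ind_mem O_mem) (S.col_mem 0 u)
    have hval : ind O + (fun p => (if S.lab p = 0 then (1 : ZMod 2) else 0) +
        (if S.lab p = u then 1 else 0)) = ind ((O \ T) \ U ∪ U \ O) := by
      funext p
      have hd : p ∈ T → p ∉ U := fun hp => disjoint_left.1 hTu hp
      have hto : p ∈ T → p ∈ O := fun hp => hTO hp
      simp only [Pi.add_apply, ind_apply, mem_union, mem_sdiff, hU, mem_filter, mem_univ, true_and,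
        hT p] at hd hto ⊢
      by_cases a : p ∈ T <;> by_cases b : p ∈ O <;> by_cases c : S.lab p = u <;>
        simp [a, b, c] at * <;> decide
    rw [hval] at hw
    have hcard := golay_weight _ hw
    rw [hammingNorm_ind, card_union_of_disjoint (disjoint_left.2 fun p hp hp' =>
      (mem_sdiff.1 hp').2 (mem_sdiff.1 (mem_sdiff.1 hp).1).1)] at hcard
    have hUc : U.card = 4 := S.card_fib u
    have hOT : (O \ T).card = 4 := by
      rw [card_sdiff_of_subset hTO, octad_card O_mem, hTc, S.card_fib 0]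
    have h1 : ((O \ T) ∩ U).card + ((O \ T) \ U).card = 4 := by
      rw [card_inter_add_card_sdiff, hOT]
    have h2 : (U ∩ O).card + (U \ O).card = 4 := by rw [card_inter_add_card_sdiff, hUc]
    have h3 : (O \ T) ∩ U = U ∩ O := by
      ext p
      simp only [mem_inter, mem_sdiff]
      exact ⟨fun h => ⟨h.2, h.1.1⟩, fun h => ⟨⟨h.2, fun hp => disjoint_left.1 hTu hp h.1⟩, h.1⟩⟩
    rw [h3] at h1
    have h4 : 0 < (U ∩ O).card :=
      card_pos.2 ⟨i, mem_inter.2 ⟨mem_filter.2 ⟨mem_univ _, hu.symm⟩, hi⟩⟩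
    have h5 : 0 < (U \ O).card :=
      card_pos.2 ⟨j, mem_sdiff.2 ⟨mem_filter.2 ⟨mem_univ _, he.symm⟩, hj⟩⟩
    omega
  exact fun i j he => ⟨key i j he, key j i he.symm⟩

/-- The vector of a tetrad through the first point. -/
def tetVec (T : Finset GolayPt) : V := fun i =>
  if i ∈ T then (if i = emb 0 then 4 else -4) else 0

theorem exists_tet (T : Finset GolayPt) (hT : T ∈ (O.powersetCard 4).filter fun T => emb 0 ∈ T) :
    ∃ g : Ce, act g.1 (eight (emb 0)) = tetVec T := by
  obtain ⟨hT4, h0⟩ := mem_filter.1 hT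
  obtain ⟨hTO, hTc⟩ := mem_powersetCard.1 hT4
  obtain ⟨S, hS⟩ := exists_sextet T hTc
  obtain ⟨q, hq⟩ : ∃ q, q ∉ O := ⟨H12.pt 5, by decide +kernel⟩
  refine ⟨⟨S.xiAut (S.lab q), xiAut_mem_Ce S _ (sextet_compatible S hS hTO)⟩, ?_⟩
  show act (S.xiAut (S.lab q)) (eight (emb 0)) = tetVec T
  rw [act_xiAut S _ (isLeech_eight _)]
  have hl : S.lab (emb 0) = 0 := (hS _).2 h0
  have hne : S.lab (emb 0) ≠ S.lab q := fun e => hq (hTO ((hS q).1 (e.symm.trans hl)))
  funext i
  rw [xiFun_eight S hne, hl]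
  simp only [tetVec, hS i]

/-- The orbit of the standard cross has at least 35 members. -/
theorem le_index : 35 ≤ (crossStab.subgroupOf Ce).index := by
  choose g hg using exists_tet
  rw [Subgroup.index, ← card_tetrads, ← Nat.card_eq_finsetCard]
  refine Nat.card_le_card_of_injective
    (fun T => (QuotientGroup.mk (g T.1 T.2) : Ce ⧸ crossStab.subgroupOf Ce)) fun S T e => ?_
  obtain ⟨S, hS⟩ := S
  obtain ⟨T, hT⟩ := T
  have hk : ((g S hS)⁻¹ * g T hT : Ce).1 ∈ crossStab :=
    (QuotientGroup.eq (s := crossStab.subgroupOf Ce)).1 e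
  have hmem : tetVec T ∈ cross (tetVec S) := by
    rw [← hg S hS, ← hg T hT, cross_act _ (isLeech_eight _), cross_eight]
    refine ⟨act ((g S hS)⁻¹ * g T hT : Ce).1 (eight (emb 0)), (mem_crossStab_iff.1 hk) _
      (mem_stdCross_iff.2 ⟨_, Or.inl rfl⟩), ?_⟩
    rw [← mul_act]
    simp
  obtain ⟨-, hn, z, hz, ez⟩ := mem_cross_iff.1 hmem
  have hLS : IsLeech (tetVec S) := hg S hS ▸ isLeech_act _ (isLeech_eight _)
  have hLT : IsLeech (tetVec T) := hg T hT ▸ isLeech_act _ (isLeech_eight _)
  have hnS : sqNorm (tetVec S) = 64 := by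
    rw [← hg S hS, sqNorm_act _ (isLeech_eight _), sqNorm_eight]
  have h0S : emb 0 ∈ S := (mem_filter.1 hS).2
  have h0T : emb 0 ∈ T := (mem_filter.1 hT).2
  refine Subtype.ext ?_
  rcases congr_two_cases hLS hLT hz ez hnS.le (hn.trans hnS).le with h | h | ⟨-, -, h⟩
  · ext i
    have hi := congrFun h i
    by_cases a : i ∈ S <;> by_cases b : i ∈ T <;> by_cases c : i = emb 0 <;>
      simp [tetVec, a, b, c] at hi ⊢ <;> simp_all
  · have := congrFun h (emb 0)
    simp [tetVec, h0S, h0T] at this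
  · exfalso
    have hd : dotInt (tetVec S) (tetVec T) = ∑ i, if i ∈ S ∩ T then 16 else 0 := by
      refine sum_congr rfl fun i _ => ?_
      by_cases a : i ∈ S <;> by_cases b : i ∈ T <;> by_cases c : i = emb 0 <;>
        simp [tetVec, a, b, c] <;> simp_all
    rw [hd, sum_ite_mem, univ_inter, sum_const, nsmul_eq_mul] at h
    have : 0 < (S ∩ T).card := card_pos.2 ⟨_, mem_inter.2 ⟨h0S, h0T⟩⟩
    omega

theorem pair_in8 : ∀ p q : Fin 8,
    In8 (fun k => (if k = p then 4 else 0) + (if k = q then 4 else 0)) := by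
  decide +kernel

theorem exists_avoid : ∀ a b d f : Fin 8, ∃ q, q ≠ a ∧ q ≠ b ∧ q ≠ d ∧ q ≠ f := by decide +kernel

theorem two_others : ∀ p : Fin 8, ∃ q, q ≠ p ∧ ∃ r, r ≠ p ∧ q ≠ r := by decide +kernel

/-- The kernel consists of monomial maps fixing the octad pointwise with constant signs on it. -/
theorem ker_eq_mono {g : Ce} (hg : g ∈ psi.ker) :
    ∃ σ hσ c hc, g.1 = monoAut σ hσ c hc ∧ σ ∈ H11.fixM24 O ∧
      ∀ p ∈ O, ∀ q ∈ O, c p = c q := by
  rw [mem_ker_psi] at hg
  have hred : ∀ x, Mem8 x → red (act g.1 x) = red x := fun x hx => by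
    rw [red_act g.2 hx, hg]
  have hcs : g.1 ∈ crossStab := by
    refine mem_crossStab_of_cross (p := emb 0) ?_
    rw [cross_eq_of_red (mem8_eight (emb_mem 0)) ((mem8_eight (emb_mem 0)).act g.2)
      (hred _ (mem8_eight (emb_mem 0))).symm (sqNorm_eight _)
      (by rw [sqNorm_act _ (isLeech_eight _), sqNorm_eight]), cross_eight]
  obtain ⟨σ, hσ, c, hc, e⟩ := exists_mono hcs
  have hmem : monoAut σ hσ c hc ∈ Ce := e ▸ g.2
  have hO := (mem_Ce_mono_iff hσ hc).1 hmem
  choose τ hτ using fun p : Fin 8 => (mem_O_iff (σ (emb p))).1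
    ((H11.apply_mem_iff_of_smul_eq hO _).2 (emb_mem p))
  have hτi : Function.Injective τ := fun a b hab =>
    emb_inj _ _ (σ.injective (by rw [← hτ, ← hτ, hab]))
  -- images of the pairs
  have hmain : ∀ p q, p ≠ q → ∀ (A : Fin 8 → ℤ),
      (∀ k, A k = (if k = τ p then (if c (emb (τ p)) = 0 then 4 else -4) else 0) +
        (if k = τ q then (if c (emb (τ q)) = 0 then 4 else -4) else 0) -
        ((if k = p then 4 else 0) + (if k = q then 4 else 0))) →
      (∀ k, 8 ∣ A k - A 0) ∧ 4 ∣ A 0 ∧ 16 ∣ ∑ k, A k := by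
    intro p q hpq A hA
    have hx := mem8_ext8 (pair_in8 p q)
    obtain ⟨z, hz, ez⟩ := exists_two_of_red_eq (hx.act g.2) hx (hred _ hx)
    rw [e, act_monoAut hσ hc hx.1] at ez
    have hall : ∀ k, A k = 2 * res8 z k := by
      intro k
      obtain ⟨r, rfl⟩ := (Finite.injective_iff_bijective.1 hτi).2 k
      have hs : σ.symm (emb (τ r)) = emb r := by rw [hτ, Equiv.symm_apply_apply]
      have := congrFun ez (emb (τ r))
      simp only [Pi.sub_apply, ext8_emb, Pi.smul_apply, two_nsmul, Pi.add_apply, signFun,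
        permFun, hs] at this
      rw [hA, res8, two_mul, ← this]
      by_cases a : r = p
      · subst a; simp [hpq, hτi.ne hpq]
      · by_cases b : r = q
        · subst b; simp [a, hτi.ne a]
        · simp [a, b, hτi.ne a, hτi.ne b]
    obtain ⟨h4, h2, h8⟩ := in8_res8 hz
    refine ⟨fun k => ?_, ?_, ?_⟩
    · have := h4 k; rw [hall, hall]; omega
    · rw [hall]; omega
    · rw [sum_congr rfl fun k _ => hall k, ← mul_sum]; omega
  have hmove : ∀ p q, p ≠ q → τ p = p ∨ τ q = p := by
    intro p q hpq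
    by_contra hne
    push Not at hne
    obtain ⟨s, h1, h2, h3, h4⟩ := exists_avoid p q (τ p) (τ q)
    obtain ⟨h, -, -⟩ := hmain p q hpq _ (fun k => rfl)
    have := h s
    have := h p
    simp only [h1, h2, h3, h4, Ne.symm hne.1, Ne.symm hne.2, hpq, if_false, if_true] at *
    omega
  have hfix : ∀ p, τ p = p := by
    intro p
    by_contra hne
    obtain ⟨q, hq, r, hr, hqr⟩ : ∃ q, q ≠ p ∧ ∃ r, r ≠ p ∧ q ≠ r := two_others p
    exact hqr (hτi (((hmove p q (Ne.symm hq)).resolve_left hne).trans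
      ((hmove p r (Ne.symm hr)).resolve_left hne).symm))
  have hsign : ∀ p q, c (emb p) = c (emb q) := by
    intro p q
    by_cases hpq : p = q
    · rw [hpq]
    obtain ⟨-, -, h16⟩ := hmain p q hpq _ (fun k => rfl)
    simp only [hfix, sum_sub_distrib, sum_add_distrib, sum_ite_eq', mem_univ, if_true] at h16
    have hz2 : ∀ a : ZMod 2, a = 0 ∨ a = 1 := by decide
    rcases hz2 (c (emb p)) with a | a <;> rcases hz2 (c (emb q)) with b | b <;>
      simp [a, b] at h16 ⊢
  refine ⟨σ, hσ, c, hc, e, H11.mem_fixM24.2 ⟨hσ, fun x hx => ?_⟩, fun p hp q hq => ?_⟩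
  · obtain ⟨i, rfl⟩ := (mem_O_iff x).1 hx
    rw [← hτ i, hfix]
  · obtain ⟨i, rfl⟩ := (mem_O_iff p).1 hp
    obtain ⟨j, rfl⟩ := (mem_O_iff q).1 hq
    exact hsign i j

theorem mono_mem_Ce {σ : Equiv.Perm GolayPt} (hσ : σ ∈ H11.fixM24 O) {c : GolayPt → ZMod 2}
    (hc : c ∈ golayCode) : monoAut σ hσ.1 c hc ∈ Ce :=
  (mem_Ce_mono_iff hσ.1 hc).2 (H11.smul_eq_of_mem_fixM24 hσ)

theorem mono_mem_ker {σ : Equiv.Perm GolayPt} (hσ : σ ∈ H11.fixM24 O) {c : GolayPt → ZMod 2}
    (hc : c ∈ golayCode) (hcon : ∀ p ∈ O, ∀ q ∈ O, c p = c q) :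
    (⟨monoAut σ hσ.1 c hc, mono_mem_Ce hσ hc⟩ : Ce) ∈ psi.ker := by
  rw [mem_ker_psi]
  intro v
  show red (act (monoAut σ hσ.1 c hc) (lift8 v)) = v
  have hx := mem8_lift v
  have hperm : permFun σ (lift8 v) = lift8 v := by
    funext p
    show lift8 v (σ.symm p) = lift8 v p
    have hm := H11.apply_mem_iff_of_smul_eq (H11.smul_eq_of_mem_fixM24 hσ) (σ.symm p)
    rw [Equiv.apply_symm_apply] at hm
    by_cases hp : p ∈ O
    · have := (H11.mem_fixM24.1 hσ).2 _ (hm.1 hp)
      rw [Equiv.apply_symm_apply] at this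
      rw [← this]
    · rw [hx.2 p hp, hx.2 _ fun h => hp (hm.2 h)]
  rw [act_monoAut hσ.1 hc hx.1, hperm]
  have hz : ∀ z : ZMod 2, z = 0 ∨ z = 1 := by decide
  rcases hz (c (emb 0)) with h0 | h0
  · have : signFun c (lift8 v) = lift8 v := by
      funext p
      by_cases hp : p ∈ O
      · simp [signFun, hcon p hp _ (emb_mem 0), h0]
      · simp [signFun, hx.2 p hp]
    rw [this, red_lift]
  · have : signFun c (lift8 v) = -lift8 v := by
      funext p
      by_cases hp : p ∈ O
      · simp [signFun, hcon p hp _ (emb_mem 0), h0]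
      · simp [signFun, hx.2 p hp]
    rw [this, red_neg hx, red_lift]

theorem card_ker : Nat.card psi.ker = 1024 := by
  rw [show 1024 = 64 * 16 by norm_num, ← card_const, ← H11.card_fixM24 O_mem, ← Nat.card_prod]
  refine (Nat.card_congr (Equiv.ofBijective
    (fun p : {c : golayCode // ∀ a ∈ O, ∀ b ∈ O, (c : GolayPt → ZMod 2) a =
        (c : GolayPt → ZMod 2) b} × H11.fixM24 O =>
      (⟨⟨monoAut p.2.1 p.2.2.1 p.1.1.1 p.1.1.2, mono_mem_Ce p.2.2 p.1.1.2⟩,
        mono_mem_ker p.2.2 p.1.1.2 p.1.2⟩ : psi.ker))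
    ⟨fun a b e => ?_, fun g => ?_⟩)).symm
  · obtain ⟨h1, h2⟩ := monoAut_injective (congrArg (fun x => x.1.1) e)
    exact Prod.ext (Subtype.ext (Subtype.ext h2)) (Subtype.ext h1)
  · obtain ⟨σ, hσ, c, hc, e, hfix, hcon⟩ := ker_eq_mono g.2
    exact ⟨(⟨⟨c, hc⟩, hcon⟩, ⟨σ, hfix⟩), Subtype.ext (Subtype.ext e.symm)⟩

theorem card_Ce : Nat.card Ce = (crossStab.subgroupOf Ce).index * (4096 * 322560) := by
  rw [← card_cross_part, mul_comm, Subgroup.card_mul_index]

theorem card_range : Nat.card psi.range = (crossStab.subgroupOf Ce).index * 1290240 := by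
  have h := psi.ker.card_mul_index
  rw [Subgroup.index_ker, card_ker, card_Ce] at h
  omega

theorem center_Omega : Subgroup.center (commutator (H5.orth Q8)) = ⊥ := by
  refine eq_bot_iff.2 fun g hg => ?_
  obtain ⟨t, ht⟩ := (H5.mem_center_iff (H5.qPlus_nondegenerate 4) (by simp) (Or.inr (by simp))).1 hg
  rw [Subgroup.mem_bot]
  refine Subtype.ext (H5.orth_ext fun x => ?_)
  rw [ht x]
  have hz : ∀ z : ZMod 2, z = 0 ∨ z = 1 := by decide
  rcases hz t with rfl | rfl
  · have h1 := ht (Pi.single (Sum.inl 0) 1)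
    rw [zero_smul] at h1
    have h2 := congrFun (((g : H5.orth Q8) : F8 ≃ₗ[ZMod 2] F8).injective
      (h1.trans (map_zero _).symm)) (Sum.inl 0)
    simp at h2
  · rw [one_smul]; rfl

theorem simple_Omega : IsSimpleGroup (commutator (H5.orth Q8)) :=
  haveI := H5.isSimpleGroup_commutator_mod_center (H5.qPlus_nondegenerate (F := ZMod 2) 4)
    (by simp)
  (((QuotientGroup.quotientMulEquivOfEq center_Omega).trans
    QuotientGroup.quotientBot).isSimpleGroup_congr).1 this

theorem card_orth : Nat.card (H5.orth Q8) = 348364800 := by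
  rw [← Nat.card_congr (H5.isoEquiv Q8 (H5.coe_qPlus 4)).toEquiv,
    Cfsg.Agent.S0287.result (q := 2) (ZMod.card 2) 4 (by norm_num)]
  decide

theorem index_Omega : (commutator (H5.orth Q8)).index = 2 :=
  H5.commutator_index_two (by decide) (H5.qPlus_nondegenerate 4) (Or.inr (by simp))
    ⟨Pi.single (Sum.inl 0) 1 + Pi.single (Sum.inr 0) 1, by
      rw [show (⇑Q8) = Cfsg.quadFormPlus 4 (ZMod 2) from H5.coe_qPlus 4]; decide +kernel⟩

theorem card_Omega : Nat.card (commutator (H5.orth Q8)) = 174182400 := by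
  have h := (commutator (H5.orth Q8)).card_mul_index
  rw [index_Omega, card_orth] at h
  omega

instance finite_orth : Finite (H5.orth Q8) :=
  Nat.finite_of_card_ne_zero (by rw [card_orth]; norm_num)

/-- The centraliser induces exactly the simple orthogonal group. -/
theorem range_psi : psi.range = commutator (H5.orth Q8) := by
  set Ω := commutator (H5.orth Q8) with hΩ
  haveI := simple_Omega
  have hR : psi.range.index ≤ 7 := by
    have h := psi.range.card_mul_index
    rw [card_range, card_orth] at h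
    by_contra hc
    have h8 : 8 ≤ psi.range.index := by omega
    have := Nat.mul_le_mul (Nat.mul_le_mul le_index (le_refl 1290240)) h8
    omega
  have hle : Ω ≤ psi.range := by
    set M := psi.range.subgroupOf Ω with hM
    by_contra hnle
    have hMt : M ≠ ⊤ := fun h => hnle (Subgroup.subgroupOf_eq_top.1 h)
    have hnc : M.normalCore = ⊥ := by
      refine (IsSimpleGroup.eq_bot_or_eq_top_of_normal _ M.normalCore_normal).resolve_right ?_
      exact fun h => hMt (top_le_iff.1 (h ▸ M.normalCore_le))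
    have hinj : Function.Injective (MulAction.toPermHom ↥Ω (↥Ω ⧸ M)) := by
      rw [← MonoidHom.ker_eq_bot_iff, ← Subgroup.normalCore_eq_ker, hnc]
    have hc := Nat.card_le_card_of_injective _ hinj
    rw [Nat.card_perm, card_Omega] at hc
    have hk : Nat.card (↥Ω ⧸ M) ≤ 7 := by
      have : M.index = psi.range.relIndex Ω := rfl
      rw [← Subgroup.index, this]
      refine le_trans ?_ hR
      rw [← Subgroup.relIndex_top_right]
      exact Subgroup.relIndex_le_of_le_right le_top
        (by rw [Subgroup.relIndex_top_right]; exact Subgroup.index_ne_zero_of_finite)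
    have := Nat.factorial_le hk
    have h7 : Nat.factorial 7 = 5040 := rfl
    omega
  refine (Subgroup.eq_of_le_of_card_ge hle ?_).symm
  rw [card_range, card_Omega]
  exact le_trans (Nat.mul_le_mul_right _ index_le) (by norm_num)

end Cfsg.Agent.H18.CoOne
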