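import Cfsg.Agent.H14.LeechMonomial
import Cfsg.Agent.H11.OctadStab
import Cfsg.Agent.H5.OrthBasic
import Cfsg.Agent.H12.Code

/-! The sublattice of the Leech lattice supported on an octad, modulo 2. -/

set_option autoImplicit false

namespace Cfsg.Agent.H18.CoOne

open Cfsg.Agent Finset H14

/-- Index type of the coordinates. -/
abbrev J : Type := Fin 4 ⊕ Fin 4

/-- Coordinate vectors. -/
abbrev F8 : Type := J → ZMod 2

/-- The octad. -/
def O : Finset GolayPt := H12.fin H11.octad0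

theorem O_mem : O ∈ octads :=
  (H12.fin_mem_octads (by decide)).2 (by decide +kernel)

/-- The eight points of the octad. -/
def emb (i : Fin 8) : GolayPt := H12.pt ([0, 1, 2, 3, 4, 7, 10, 12].getD i.1 0)

theorem emb_inj : ∀ i j, emb i = emb j → i = j := by decide +kernel

theorem mem_O_iff : ∀ p, p ∈ O ↔ ∃ i, emb i = p := by decide +kernel

theorem emb_mem (i : Fin 8) : emb i ∈ O := (mem_O_iff _).2 ⟨i, rfl⟩

/-- Extension by zero. -/
def ext8 (u : Fin 8 → ℤ) : V := fun p => ∑ i, if emb i = p then u i else 0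

/-- Restriction to the octad. -/
def res8 (x : V) : Fin 8 → ℤ := fun i => x (emb i)

theorem ext8_emb (u : Fin 8 → ℤ) (i : Fin 8) : ext8 u (emb i) = u i := by
  unfold ext8
  rw [sum_eq_single i]
  · rw [if_pos rfl]
  · exact fun j _ hj => if_neg fun e => hj (emb_inj _ _ e)
  · simp

theorem ext8_off (u : Fin 8 → ℤ) {p : GolayPt} (hp : p ∉ O) : ext8 u p = 0 :=
  sum_eq_zero fun i _ => if_neg fun e => hp ((mem_O_iff p).2 ⟨i, e⟩)

theorem sum_O (f : V) (hf : ∀ p, p ∉ O → f p = 0) : ∑ p, f p = ∑ i, f (emb i) := by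
  have : O = univ.image emb := by ext p; simp [mem_O_iff p]
  rw [← sum_subset (subset_univ O) fun p _ hp => hf p hp, this,
    sum_image fun a _ b _ e => emb_inj a b e]

/-- A lattice vector supported on the octad. -/
def Mem8 (x : V) : Prop := IsLeech x ∧ ∀ p, p ∉ O → x p = 0

theorem Mem8.ext8_res8 {x : V} (hx : Mem8 x) : ext8 (res8 x) = x := by
  funext p
  by_cases hp : p ∈ O
  · obtain ⟨i, rfl⟩ := (mem_O_iff p).1 hp
    exact ext8_emb _ i
  · rw [ext8_off _ hp, hx.2 p hp]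

theorem dotInt_mem8 {x : V} (hx : Mem8 x) (y : V) : dotInt x y = ∑ i, x (emb i) * y (emb i) :=
  sum_O (fun p => x p * y p) fun p hp => by rw [hx.2 p hp, zero_mul]

theorem sqNorm_mem8 {x : V} (hx : Mem8 x) : sqNorm x = ∑ i, x (emb i) ^ 2 :=
  sum_O (fun p => x p ^ 2) fun p hp => by rw [hx.2 p hp]; rfl

/-- The conditions on the restriction. -/
def In8 (u : Fin 8 → ℤ) : Prop :=
  (∀ i, (u i - u 0) % 4 = 0) ∧ u 0 % 2 = 0 ∧ (∑ i, u i) % 8 = 0

instance (u : Fin 8 → ℤ) : Decidable (In8 u) := by unfold In8; infer_instance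

theorem mem8_ext8 {u : Fin 8 → ℤ} (hu : In8 u) : Mem8 (ext8 u) := by
  obtain ⟨h4, h2, h8⟩ := hu
  refine ⟨⟨0, fun p => ext8 u p / 2, fun p => ?_, ?_, ?_⟩, fun p hp => ext8_off u hp⟩
  · by_cases hp : p ∈ O
    · obtain ⟨i, rfl⟩ := (mem_O_iff p).1 hp
      have := h4 i
      simp only [ext8_emb]; omega
    · simp [ext8_off u hp]
  · have : par (fun p => ext8 u p / 2) = ((u 0 / 2 : ℤ) : ZMod 2) • ind O := by
      funext p
      by_cases hp : p ∈ O
      · obtain ⟨i, rfl⟩ := (mem_O_iff p).1 hp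
        have := h4 i
        simp only [par_apply, Pi.smul_apply, ind_apply, if_pos hp, smul_eq_mul, mul_one, ext8_emb]
        rw [ZMod.intCast_eq_intCast_iff']; omega
      · simp [hp, ext8_off u hp]
    rw [this]
    exact Submodule.smul_mem _ _ (octad_ind_mem O_mem)
  · rw [sum_O _ fun p hp => ext8_off u hp]
    simp only [ext8_emb, mul_zero, sub_zero]
    exact Int.dvd_of_emod_eq_zero h8

/-- A word supported on the octad is zero or the octad. -/
theorem word_on_O {c : GolayPt → ZMod 2} (hc : c ∈ golayCode) (h : ∀ p, p ∉ O → c p = 0) :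
    c = 0 ∨ c = ind O := by
  have hs : support₂ c ⊆ O := fun p hp => by
    by_contra hpo
    simp [support₂, h p hpo] at hp
  have hle := card_le_card hs
  rw [octad_card O_mem] at hle
  have hn : hammingNorm c = (support₂ c).card := rfl
  rcases golay_weight c hc with e | e | e | e | e
  · exact Or.inl (hammingNorm_eq_zero.1 e)
  · refine Or.inr ?_
    rw [← eq_of_subset_of_card_le hs (by rw [octad_card O_mem]; omega), ind_support₂]
  all_goals omega

theorem in8_res8 {x : V} (hx : Mem8 x) : In8 (res8 x) := by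
  obtain ⟨⟨m, a, hxa, ha, hsum⟩, h0⟩ := hx
  obtain ⟨q, hq⟩ : ∃ q, q ∉ O := ⟨H12.pt 5, by decide +kernel⟩
  have hq0 := hxa q
  rw [h0 q hq] at hq0
  obtain ⟨k, hk⟩ : ∃ k, m = 2 * k := ⟨-a q, by omega⟩
  have hc : par a + (k : ZMod 2) • (1 : GolayPt → ZMod 2) ∈ golayCode :=
    add_mem ha (Submodule.smul_mem _ _ one_mem_golayCode)
  have hval : ∀ p, (par a + (k : ZMod 2) • (1 : GolayPt → ZMod 2)) p = ((a p + k : ℤ) : ZMod 2) := by
    intro p; simp
  have hoff : ∀ p, p ∉ O → (par a + (k : ZMod 2) • (1 : GolayPt → ZMod 2)) p = 0 := fun p hp => by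
    have := hxa p
    rw [h0 p hp] at this
    rw [hval, show a p + k = 0 by omega]; rfl
  refine ⟨fun i => ?_, ?_, ?_⟩
  · have h : ((a (emb i) + k : ℤ) : ZMod 2) = ((a (emb 0) + k : ℤ) : ZMod 2) := by
      rw [← hval, ← hval]
      rcases word_on_O hc hoff with e | e <;> rw [e] <;> simp [emb_mem]
    rw [ZMod.intCast_eq_intCast_iff'] at h
    have := hxa (emb i); have := hxa (emb 0)
    simp only [res8]
    omega
  · have := hxa (emb 0)
    simp only [res8]
    omega
  · have h1 : ∑ i, res8 x i = ∑ p, x p := (sum_O x h0).symm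
    rw [h1]
    omega

theorem Mem8.add {x y : V} (hx : Mem8 x) (hy : Mem8 y) : Mem8 (x + y) :=
  ⟨hx.1.add hy.1, fun p hp => by simp [hx.2 p hp, hy.2 p hp]⟩

theorem Mem8.neg {x : V} (hx : Mem8 x) : Mem8 (-x) :=
  ⟨hx.1.neg, fun p hp => by simp [hx.2 p hp]⟩

theorem Mem8.sub {x y : V} (hx : Mem8 x) (hy : Mem8 y) : Mem8 (x - y) :=
  ⟨hx.1.sub hy.1, fun p hp => by simp [hx.2 p hp, hy.2 p hp]⟩

theorem mem8_zero : Mem8 0 := ⟨isLeech_zero, fun _ _ => rfl⟩

/-- Inner products on the sublattice are divisible by 16. -/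
theorem sixteen_dvd_dot {u v : Fin 8 → ℤ} (hu : In8 u) (hv : In8 v) : (16 : ℤ) ∣ ∑ i, u i * v i := by
  obtain ⟨hu4, hu2, hu8⟩ := hu
  obtain ⟨hv4, hv2, hv8⟩ := hv
  obtain ⟨k, hk⟩ : ∃ k, u 0 = 2 * k := ⟨u 0 / 2, by omega⟩
  obtain ⟨l, hl⟩ : ∃ l, v 0 = 2 * l := ⟨v 0 / 2, by omega⟩
  choose α hα using fun i => (⟨(u i - u 0) / 4, by have := hu4 i; omega⟩ : ∃ t, u i = 2 * k + 4 * t)
  choose β hβ using fun i => (⟨(v i - v 0) / 4, by have := hv4 i; omega⟩ : ∃ t, v i = 2 * l + 4 * t)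
  have e1 : ∑ i, u i = 16 * k + 4 * ∑ i, α i := by
    simp only [hα, sum_add_distrib, sum_const, card_univ, Fintype.card_fin, nsmul_eq_mul, mul_sum]
    push_cast; ring
  have e2 : ∑ i, v i = 16 * l + 4 * ∑ i, β i := by
    simp only [hβ, sum_add_distrib, sum_const, card_univ, Fintype.card_fin, nsmul_eq_mul, mul_sum]
    push_cast; ring
  have e : ∀ i, u i * v i = 4 * k * l + 8 * k * β i + 8 * l * α i + 16 * (α i * β i) := fun i => by
    rw [hα, hβ]; ring
  obtain ⟨a, ha⟩ : (2 : ℤ) ∣ ∑ i, α i := by omega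
  obtain ⟨b, hb⟩ : (2 : ℤ) ∣ ∑ i, β i := by omega
  simp only [e, sum_add_distrib, sum_const, card_univ, Fintype.card_fin, nsmul_eq_mul, ← mul_sum,
    ha, hb]
  exact ⟨2 * k * l + k * b + l * a + ∑ i, α i * β i, by push_cast; ring⟩

theorem sixteen_dvd_dotInt {x y : V} (hx : Mem8 x) (hy : Mem8 y) : (16 : ℤ) ∣ dotInt x y := by
  rw [dotInt_mem8 hx]
  exact sixteen_dvd_dot (in8_res8 hx) (in8_res8 hy)

/-- A basis of the sublattice. -/
def bas : J → Fin 8 → ℤ :=
  Sum.elim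
    ![![-2, -2, -2, -2, -2, 2, -6, -2], ![0, 0, 0, 4, -4, -4, 4, 0],
      ![0, 4, -4, 4, -4, -8, 8, 0], ![6, -2, 2, 2, -2, -2, 2, 2]]
    ![![-2, -2, -2, -2, -2, 6, -2, -2], ![0, 0, 4, 0, -4, -4, 4, 0],
      ![-2, 2, -6, 2, -2, -6, 6, -2], ![6, -6, 6, -2, 2, 2, -2, 2]]

/-- The dual basis. -/
def dual : J → Fin 8 → ℤ :=
  Sum.elim
    ![![-2, -2, -2, -2, -2, -2, -2, 6], ![-4, -4, 0, 4, 0, 0, 0, 4],
      ![-14, -10, -10, -10, -6, -2, 2, 42], ![14, 10, 6, 6, 2, 2, -2, -30]]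
    ![![-2, -2, -2, -2, -2, 2, 2, 6], ![4, 4, 4, 0, 0, 0, 0, -12],
      ![8, 4, 4, 4, 4, 0, 0, -24], ![-10, -10, -6, -6, -2, -2, 2, 26]]

theorem bas_in8 : ∀ j, In8 (bas j) := by decide +kernel

theorem dual_in8 : ∀ j, In8 (dual j) := by decide +kernel

theorem bas_dual : ∀ i k, ∑ j, bas j i * dual j k = if i = k then 16 else 0 := by decide +kernel

theorem dual_bas : ∀ i j, ∑ k, bas i k * dual j k = if i = j then 16 else 0 := by decide +kernel

/-- Coefficient of a vector at a basis element. -/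
def coef (x : V) (j : J) : ℤ := (∑ k, x (emb k) * dual j k) / 16

theorem coef_spec {x : V} (hx : Mem8 x) (j : J) : 16 * coef x j = ∑ k, x (emb k) * dual j k :=
  Int.mul_ediv_cancel' (sixteen_dvd_dot (in8_res8 hx) (dual_in8 j))

theorem coef_sum {x : V} (hx : Mem8 x) (i : Fin 8) : ∑ j, coef x j * bas j i = x (emb i) := by
  refine mul_left_cancel₀ (b := ∑ j, coef x j * bas j i) (show (16 : ℤ) ≠ 0 by norm_num) ?_
  rw [mul_sum]
  simp only [← mul_assoc, coef_spec hx, sum_mul]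
  rw [sum_comm]
  simp only [mul_assoc, ← mul_sum]
  rw [sum_congr rfl fun k _ => by rw [sum_congr rfl fun j _ => mul_comm (dual j k) (bas j i),
    bas_dual i k]]
  simp [mul_comm]

/-- Coordinates modulo 2. -/
def red (x : V) : F8 := fun j => (coef x j : ZMod 2)

theorem red_add {x y : V} (hx : Mem8 x) (hy : Mem8 y) : red (x + y) = red x + red y := by
  funext j
  simp only [red, Pi.add_apply, ← Int.cast_add]
  congr 1
  refine mul_left_cancel₀ (show (16 : ℤ) ≠ 0 by norm_num) ?_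
  rw [coef_spec (hx.add hy), mul_add, coef_spec hx, coef_spec hy, ← sum_add_distrib]
  simp [add_mul]

theorem red_zero : red 0 = 0 := by
  funext j; simp [red, coef]

theorem red_neg {x : V} (hx : Mem8 x) : red (-x) = red x := by
  have h := red_add hx hx.neg
  rw [add_neg_cancel, red_zero] at h
  funext j
  have hj := congrFun h j
  simp only [Pi.zero_apply, Pi.add_apply] at hj
  have key : ∀ a b : ZMod 2, 0 = a + b → b = a := by decide
  exact key _ _ hj

theorem red_sub {x y : V} (hx : Mem8 x) (hy : Mem8 y) : red (x - y) = red x + red y := by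
  rw [sub_eq_add_neg, red_add hx hy.neg, red_neg hy]

theorem red_two {x : V} (hx : Mem8 x) : red (2 • x) = 0 := by
  rw [two_nsmul, red_add hx hx]
  funext j
  exact CharTwo.add_self_eq_zero _

/-- A standard lift. -/
def lift8 (v : F8) : V := ext8 fun i => ∑ j, ((v j).val : ℤ) * bas j i

theorem mem8_lift (v : F8) : Mem8 (lift8 v) := by
  refine mem8_ext8 ⟨fun i => ?_, ?_, ?_⟩
  · rw [← sum_sub_distrib]
    refine Int.emod_eq_zero_of_dvd (dvd_sum fun j _ => ?_)
    rw [← mul_sub]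
    exact Dvd.dvd.mul_left (Int.dvd_of_emod_eq_zero ((bas_in8 j).1 i)) _
  · exact Int.emod_eq_zero_of_dvd
      (dvd_sum fun j _ => Dvd.dvd.mul_left (Int.dvd_of_emod_eq_zero (bas_in8 j).2.1) _)
  · rw [sum_comm]
    refine Int.emod_eq_zero_of_dvd (dvd_sum fun j _ => ?_)
    rw [← mul_sum]
    exact Dvd.dvd.mul_left (Int.dvd_of_emod_eq_zero (bas_in8 j).2.2) _

theorem red_lift (v : F8) : red (lift8 v) = v := by
  funext j
  have h : ∑ k, lift8 v (emb k) * dual j k = 16 * ((v j).val : ℤ) := by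
    simp only [lift8, ext8_emb, sum_mul, mul_assoc]
    rw [sum_comm, sum_congr rfl fun i _ => by rw [← mul_sum, dual_bas i j]]
    simp [mul_comm]
  show ((coef (lift8 v) j : ℤ) : ZMod 2) = v j
  rw [coef, h, Int.mul_ediv_cancel_left _ (by norm_num), Int.cast_natCast, ZMod.natCast_zmod_val]

/-- Congruent modulo twice the sublattice. -/
theorem exists_two_of_red_eq {x y : V} (hx : Mem8 x) (hy : Mem8 y) (h : red x = red y) :
    ∃ z, Mem8 z ∧ x - y = 2 • z := by
  have hd : Mem8 (x - y) := hx.sub hy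
  have h0 : red (x - y) = 0 := by
    rw [red_sub hx hy, h]; funext j; exact CharTwo.add_self_eq_zero _
  have h2 : ∀ j, 2 ∣ coef (x - y) j := fun j => by
    have := congrFun h0 j
    simp only [red, Pi.zero_apply] at this
    exact_mod_cast (ZMod.intCast_zmod_eq_zero_iff_dvd _ 2).1 this
  choose n hn using h2
  refine ⟨ext8 fun i => ∑ j, n j * bas j i, mem8_ext8 ⟨fun i => ?_, ?_, ?_⟩, ?_⟩
  · rw [← sum_sub_distrib]
    refine Int.emod_eq_zero_of_dvd (dvd_sum fun j _ => ?_)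
    rw [← mul_sub]
    exact Dvd.dvd.mul_left (Int.dvd_of_emod_eq_zero ((bas_in8 j).1 i)) _
  · exact Int.emod_eq_zero_of_dvd
      (dvd_sum fun j _ => Dvd.dvd.mul_left (Int.dvd_of_emod_eq_zero (bas_in8 j).2.1) _)
  · rw [sum_comm]
    refine Int.emod_eq_zero_of_dvd (dvd_sum fun j _ => ?_)
    rw [← mul_sum]
    exact Dvd.dvd.mul_left (Int.dvd_of_emod_eq_zero (bas_in8 j).2.2) _
  · funext p
    by_cases hp : p ∈ O
    · obtain ⟨i, rfl⟩ := (mem_O_iff p).1 hp
      rw [← coef_sum hd i]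
      simp only [Pi.smul_apply, ext8_emb, hn, two_nsmul, mul_assoc, ← mul_sum]
      ring
    · simp [ext8_off _ hp, hx.2 p hp, hy.2 p hp]

/-- The squared length of a lift gives the quadratic form. -/
theorem q_lift : ∀ v : F8,
    (((∑ i, (∑ j, ((v j).val : ℤ) * bas j i) ^ 2) / 32 : ℤ) : ZMod 2) =
      Cfsg.quadFormPlus 4 (ZMod 2) v := by
  decide +kernel

/-- The quadratic form from squared lengths. -/
theorem q_red {x : V} (hx : Mem8 x) :
    ((sqNorm x / 32 : ℤ) : ZMod 2) = Cfsg.quadFormPlus 4 (ZMod 2) (red x) := by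
  obtain ⟨z, hz, e⟩ := exists_two_of_red_eq hx (mem8_lift (red x)) (red_lift _).symm
  have hx' : x = lift8 (red x) + 2 • z := by rw [← e]; abel
  rw [← q_lift (red x)]
  have hn : ∑ i, (∑ j, ((red x j).val : ℤ) * bas j i) ^ 2 = sqNorm (lift8 (red x)) := by
    rw [sqNorm_mem8 (mem8_lift _)]
    simp only [lift8, ext8_emb]
  have k : sqNorm (2 • z) = 4 * sqNorm z := by
    unfold sqNorm; rw [mul_sum]; exact sum_congr rfl fun i _ => by simp; ring
  have k2 : dotInt (lift8 (red x)) (2 • z) = 2 * dotInt (lift8 (red x)) z := by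
    unfold dotInt; rw [mul_sum]; exact sum_congr rfl fun i _ => by simp; ring
  rw [hn, ZMod.intCast_eq_intCast_iff']
  conv_lhs => rw [hx', sqNorm_add, k, k2]
  have := sixteen_dvd_dotInt (mem8_lift (red x)) hz
  have := hz.1.sixteen_dvd_sqNorm
  omega

theorem mem8_eight {p : GolayPt} (hp : p ∈ O) : Mem8 (eight p) :=
  ⟨isLeech_eight p, fun q hq => by
    have : q ≠ p := fun e => hq (e ▸ hp)
    simp [eight, this]⟩

end Cfsg.Agent.H18.CoOne
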