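import Cfsg.Agent.H18.CoOne.Action
import Cfsg.Agent.H18.GLTwo
import Cfsg.Agent.H51.Component
import Cfsg.Prelude.Def_Spor_Conway

/-! The involution centraliser of plus type in the first Conway group. -/

set_option autoImplicit false

namespace Cfsg.Agent.H18

/-- A self-centralising normal nilpotent subgroup with simple nonabelian quotient is `F*`. -/
theorem fstar_eq_of_simple_quotient {G : Type*} [Group G] [Finite G] (Q : Subgroup G) [Q.Normal]
    (hQ : Group.IsNilpotent Q) (hC : Subgroup.centralizer (Q : Set G) ≤ Q)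
    (hS : IsSimpleGroup (G ⧸ Q)) (hna : ¬ IsMulCommutative (G ⧸ Q)) :
    Cfsg.generalizedFittingSubgroup G = Q := by
  have hQF : Q ≤ Cfsg.fittingSubgroup G := H51.le_fittingSubgroup ‹_› hQ
  have hFQ : Cfsg.fittingSubgroup G ≤ Q := by
    refine sSup_le ?_
    rintro N ⟨hN, hnil⟩
    haveI := hN
    haveI := hnil
    have hsurj : Function.Surjective (QuotientGroup.mk' Q) := QuotientGroup.mk'_surjective Q
    rcases IsSimpleGroup.eq_bot_or_eq_top_of_normal _ (hN.map (QuotientGroup.mk' Q) hsurj) with h | h
    · intro x hx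
      exact (QuotientGroup.eq_one_iff x).1 (Subgroup.mem_bot.1 (h ▸ Subgroup.mem_map_of_mem _ hx))
    · exfalso
      have hnilq : Group.IsNilpotent (G ⧸ Q) := by
        have h1 : Group.IsNilpotent ↥(N.map (QuotientGroup.mk' Q)) := H51.isNilpotent_map hnil _
        rw [h] at h1
        haveI := h1
        exact Group.nilpotent_of_mulEquiv Subgroup.topEquiv
      haveI := hnilq
      exact hna ⟨⟨IsSimpleGroup.comm_iff_isSolvable.2 inferInstance⟩⟩
  have hF : Cfsg.fittingSubgroup G = Q := le_antisymm hFQ hQF
  have hL : Cfsg.layer G = ⊥ := by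
    refine le_bot_iff.1 (sSup_le fun L hL => ?_)
    have h1 : L ≤ Subgroup.centralizer (Q : Set G) := by
      have := H51.component_commute_fittingSubgroup hL
      rw [hF] at this
      exact Subgroup.commutator_eq_bot_iff_le_centralizer.1 this
    rw [← H51.component_commutator_self hL]
    refine le_bot_iff.2 (Subgroup.commutator_eq_bot_iff_le_centralizer.2 ?_)
    exact h1.trans (Subgroup.centralizer_le (h1.trans hC))
  rw [Cfsg.generalizedFittingSubgroup, hF, hL]
  simp

namespace CoOne

open Cfsg.Agent Finset H14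
open scoped Pointwise

/-- The projection to the quotient by the centre. -/
noncomputable abbrev proj : Co0 →* Spor.Co1 := QuotientGroup.mk' (Subgroup.center Co0)

/-- The involution. -/
noncomputable def zel : Spor.Co1 := proj e0

/-- Its centraliser. -/
abbrev C1 : Subgroup Spor.Co1 := Subgroup.centralizer ({zel} : Set Spor.Co1)

theorem signFun_O_off (x : V) {p : GolayPt} (hp : p ∉ O) : signFun (ind O) x p = x p := by
  simp [signFun, hp]

theorem e0_not_center : e0 ∉ Subgroup.center Co0 := by
  intro h
  obtain ⟨q, hq⟩ : ∃ q, q ∉ O := ⟨H12.pt 5, by decide +kernel⟩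
  rcases mem_center_iff.1 h with e | e
  · have := congrFun (act_e0_mem8 (mem8_eight (emb_mem 0))) (emb 0)
    rw [e, one_act] at this
    simp [eight] at this
  · have := congrArg (fun k => act k (eight q) q) e
    simp only [act_negOne (isLeech_eight q), e0, act_signAut _ (isLeech_eight q),
      signFun_O_off _ hq] at this
    simp [eight] at this

/-- The rank obstruction: `e0` is not conjugate to its negative. -/
theorem not_neg_e0 (g : Co0) : g * e0 ≠ negOne * e0 * g := by
  intro h
  have hy : ∀ p, p ∉ O → Mem8 (act g (eight p)) := by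
    intro p hp
    have hfix : act e0 (eight p) = eight p := by
      rw [e0, act_signAut _ (isLeech_eight p), signFun_eight, if_pos]
      simp [hp]
    have hgy := isLeech_act g (isLeech_eight p)
    refine mem8_of_act_e0 hgy ?_
    have h2 : act (g * e0) (eight p) = act g (eight p) := by rw [mul_act, hfix]
    rw [h, mul_act, mul_act, act_negOne (isLeech_act e0 hgy)] at h2
    exact neg_eq_iff_eq_neg.1 h2
  set P := univ.filter fun p => p ∉ O with hP
  have hdot : ∀ p ∈ P, ∀ p' ∈ P,
      dotInt (act g (eight p)) (act g (eight p')) = if p = p' then 64 else 0 := by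
    intro p _ p' _
    rw [dotInt_act g (isLeech_eight p) (isLeech_eight p'), dotInt_eight]
    by_cases e : p = p' <;> simp [eight, e, Ne.symm]
  -- Bessel's inequality in each coordinate
  have hcol : ∀ q, (∑ p ∈ P, act g (eight p) q ^ 2) ≤ 64 := by
    intro q
    set S := ∑ p ∈ P, act g (eight p) q ^ 2 with hS
    set w : V := fun r => ∑ p ∈ P, act g (eight p) q * act g (eight p) r with hw
    have hwq : w q = S := sum_congr rfl fun p _ => (sq _).symm
    have hww : sqNorm w = 64 * S := by
      unfold sqNorm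
      simp only [hw, sq, Finset.sum_mul_sum]
      rw [sum_comm, hS, mul_sum]
      refine sum_congr rfl fun p hp => ?_
      rw [sum_comm]
      have : ∀ p' ∈ P, (∑ r, act g (eight p) q * act g (eight p) r *
          (act g (eight p') q * act g (eight p') r)) =
          act g (eight p) q * act g (eight p') q * if p = p' then 64 else 0 := by
        intro p' hp'
        rw [← hdot p hp p' hp', dotInt, mul_sum]
        exact sum_congr rfl fun r _ => by ring
      rw [sum_congr rfl this]
      simp only [mul_ite, mul_zero, sum_ite_eq, hp, if_true]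
      ring
    have h0 : 0 ≤ ∑ r, (w r - if r = q then 64 else 0) ^ 2 := sum_nonneg fun r _ => sq_nonneg _
    have h1 : ∑ r, (w r - if r = q then 64 else 0) ^ 2 = sqNorm w - 128 * w q + 4096 := by
      unfold sqNorm
      have : ∀ r, (w r - if r = q then 64 else 0) ^ 2 =
          w r ^ 2 - (if r = q then 128 * w r - 4096 else 0) := fun r => by split <;> ring
      simp only [this, sum_sub_distrib, sum_ite_eq', mem_univ, if_true]
      ring
    rw [h1, hww, hwq] at h0
    omega
  have htot : ∑ i : Fin 8, ∑ p ∈ P, act g (eight p) (emb i) ^ 2 = 16 * 64 := by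
    rw [sum_comm]
    have hPc : P.card = 16 := by rw [hP]; decide +kernel
    rw [sum_congr rfl fun p hp => by
      rw [← sqNorm_mem8 (hy p (mem_filter.1 hp).2), sqNorm_act g (isLeech_eight p), sqNorm_eight],
      sum_const, hPc]
    rfl
  have := sum_le_sum fun i (_ : i ∈ (univ : Finset (Fin 8))) => hcol (emb i)
  rw [htot] at this
  simp at this

theorem zel_ne_one : zel ≠ 1 := fun h => e0_not_center ((QuotientGroup.eq_one_iff e0).1 h)

theorem e0_mul_self : e0 * e0 = 1 := by
  rw [e0, signAut_mul]
  refine act_eq_of_forall fun x hx => ?_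
  rw [act_signAut _ hx, one_act]
  funext i
  by_cases hi : i ∈ O <;> simp [signFun, hi, CharTwo.add_self_eq_zero]

theorem orderOf_zel : orderOf zel = 2 :=
  orderOf_eq_prime (by rw [pow_two, zel, ← map_mul, e0_mul_self, map_one]) zel_ne_one

theorem proj_negOne : proj negOne = 1 := (QuotientGroup.eq_one_iff _).2 negOne_mem_center

theorem proj_eq_one {g : Co0} : proj g = 1 ↔ g = 1 ∨ g = negOne :=
  (QuotientGroup.eq_one_iff g).trans mem_center_iff

/-- The map of centralisers. -/
noncomputable def theta : Ce →* C1 :=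
  (proj.comp Ce.subtype).codRestrict C1 fun g => Subgroup.mem_centralizer_singleton_iff.2 (by
    show proj g.1 * proj e0 = proj e0 * proj g.1
    rw [← map_mul, comm_of_mem g.2, map_mul])

theorem theta_val (g : Ce) : (theta g : Spor.Co1) = proj g.1 := rfl

theorem theta_surjective : Function.Surjective theta := by
  intro x
  obtain ⟨g, hg⟩ := QuotientGroup.mk'_surjective (Subgroup.center Co0) x.1
  have h := Subgroup.mem_centralizer_singleton_iff.1 x.2
  rw [← hg, zel, ← map_mul, ← map_mul] at h
  have h2 : proj (g * e0 * (e0 * g)⁻¹) = 1 := by rw [map_mul, h, ← map_mul, mul_inv_cancel, map_one]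
  rcases proj_eq_one.1 h2 with e | e
  · exact ⟨⟨g, Subgroup.mem_centralizer_singleton_iff.2 (mul_inv_eq_one.1 e)⟩, Subtype.ext hg⟩
  · exact absurd (by rw [mul_assoc, ← e]; group) (not_neg_e0 g)

theorem negOne_mem_Ce : negOne ∈ Ce :=
  Subgroup.mem_centralizer_singleton_iff.2 ((Subgroup.mem_center_iff.1 negOne_mem_center e0).symm)

theorem ker_theta_le : theta.ker ≤ psi.ker := by
  intro g hg
  rw [mem_ker_psi]
  intro v
  have hg' : proj g.1 = 1 := congrArg Subtype.val (MonoidHom.mem_ker.1 hg)
  rcases proj_eq_one.1 hg' with e | e <;> show red (act g.1 (lift8 v)) = v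
  · rw [e, one_act, red_lift]
  · rw [e, act_negOne (mem8_lift v).1, red_neg (mem8_lift v), red_lift]

theorem card_ker_theta : Nat.card theta.ker = 2 := by
  have h : theta.ker = (Subgroup.center Co0).subgroupOf Ce := by
    ext g
    rw [MonoidHom.mem_ker, Subgroup.mem_subgroupOf, ← QuotientGroup.eq_one_iff, Subtype.ext_iff]
    rfl
  rw [h, Nat.card_congr (Subgroup.subgroupOfEquivOfLe ?_).toEquiv, card_center]
  intro g hg
  exact Subgroup.mem_centralizer_singleton_iff.2 ((Subgroup.mem_center_iff.1 hg e0).symm)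

/-- The commutator subgroup in the matrix group. -/
abbrev Om : Subgroup (Cfsg.isometryGroup (ZMod 2) (Cfsg.quadFormPlus 4 (ZMod 2))) :=
  Cfsg.Omega (ZMod 2) (Cfsg.quadFormPlus 4 (ZMod 2))

/-- The representation of the centraliser in the double cover. -/
noncomputable def repn : Ce →* Om :=
  (H5.omegaEquiv Q8 (H5.coe_qPlus 4)).symm.toMonoidHom.comp
    (psi.codRestrict (commutator (H5.orth Q8)) fun g => by rw [← range_psi]; exact ⟨g, rfl⟩)

theorem repn_surjective : Function.Surjective repn := by
  refine (H5.omegaEquiv Q8 (H5.coe_qPlus 4)).symm.surjective.comp fun w => ?_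
  obtain ⟨g, hg⟩ : (w : H5.orth Q8) ∈ psi.range := by rw [range_psi]; exact w.2
  exact ⟨g, Subtype.ext hg⟩

theorem ker_repn : repn.ker = psi.ker := by
  ext g
  rw [MonoidHom.mem_ker, MonoidHom.mem_ker, repn, MonoidHom.comp_apply, MulEquiv.coe_toMonoidHom,
    MulEquiv.map_eq_one_iff, Subtype.ext_iff]
  rfl

/-- The representation. -/
noncomputable def phi : C1 →* Om :=
  MonoidHom.liftOfSurjective theta theta_surjective ⟨repn, ker_repn.symm ▸ ker_theta_le⟩

theorem phi_theta (g : Ce) : phi (theta g) = repn g :=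
  theta.liftOfRightInverse_comp_apply _ (Function.rightInverse_surjInv theta_surjective)
    ⟨repn, ker_repn.symm ▸ ker_theta_le⟩ g

theorem theta_mem_ker {g : Ce} : theta g ∈ phi.ker ↔ g ∈ psi.ker := by
  rw [← ker_repn, MonoidHom.mem_ker, MonoidHom.mem_ker, phi_theta]

theorem phi_surjective : Function.Surjective phi := fun w => by
  obtain ⟨g, hg⟩ := repn_surjective w
  exact ⟨theta g, (phi_theta g).trans hg⟩

theorem card_Om : Nat.card Om = 174182400 := by
  rw [Nat.card_congr (H5.omegaEquiv Q8 (H5.coe_qPlus 4)).toEquiv, card_Omega]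

theorem card_C1 : Nat.card C1 = 512 * 174182400 := by
  have h := theta.ker.card_mul_index
  rw [Subgroup.index_ker, MonoidHom.range_eq_top.2 theta_surjective, Subgroup.card_top,
    card_ker_theta, ← psi.ker.card_mul_index, Subgroup.index_ker, range_psi, card_ker,
    card_Omega] at h
  refine Nat.eq_of_mul_eq_mul_left two_pos (h.trans ?_)
  norm_num

theorem card_phi_ker : Nat.card phi.ker = 2 ^ 9 := by
  have h := phi.ker.card_mul_index
  rw [Subgroup.index_ker, MonoidHom.range_eq_top.2 phi_surjective, Subgroup.card_top, card_C1,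
    card_Om] at h
  exact (Nat.eq_of_mul_eq_mul_right (by norm_num) h).trans (by norm_num)

/-- A monomial element over the pointwise stabiliser, in the centraliser. -/
noncomputable def mm {σ : Equiv.Perm GolayPt} (hσ : σ ∈ H11.fixM24 O) {c : GolayPt → ZMod 2}
    (hc : c ∈ golayCode) : C1 := theta ⟨monoAut σ hσ.1 c hc, mono_mem_Ce hσ hc⟩

theorem symm_mem_iff {σ : Equiv.Perm GolayPt} (hσ : σ ∈ H11.fixM24 O) (i : GolayPt) :
    σ.symm i ∈ O ↔ i ∈ O := by
  have := H11.apply_mem_iff_of_smul_eq (H11.smul_eq_of_mem_fixM24 hσ) (σ.symm i)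
  rw [Equiv.apply_symm_apply] at this
  exact this.symm

theorem symm_eq_self {σ : Equiv.Perm GolayPt} (hσ : σ ∈ H11.fixM24 O) (i : GolayPt) :
    σ.symm i = σ i := by
  rw [Equiv.symm_apply_eq, ← Equiv.Perm.mul_apply, H11.mul_self_of_mem_fixM24 O_mem hσ,
    Equiv.Perm.one_apply]

theorem signFun_add (c d : GolayPt → ZMod 2) (x : V) :
    signFun c (signFun d x) = signFun (c + d) x := by
  funext i
  have hz : ∀ z : ZMod 2, z = 0 ∨ z = 1 := by decide
  rcases hz (c i) with a | a <;> rcases hz (d i) with b | b <;>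
    simp [signFun, a, b, CharTwo.add_self_eq_zero]

theorem mono_mul {σ τ : Equiv.Perm GolayPt} (hσ : σ ∈ M24) (hτ : τ ∈ M24)
    {c d : GolayPt → ZMod 2} (hc : c ∈ golayCode) (hd : d ∈ golayCode) :
    monoAut σ hσ c hc * monoAut τ hτ d hd = monoAut (σ * τ) (mul_mem hσ hτ)
      (c + fun i => d (σ.symm i)) (add_mem hc (((mem_M24_iff σ).1 hσ d).1 hd)) := by
  refine act_eq_of_forall fun x hx => ?_
  rw [mul_act, act_monoAut hτ hd hx, act_monoAut hσ hc ((hx.permFun hτ).signFun hd),
    act_monoAut _ _ hx, ← signFun_add]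
  rfl

/-- Words vanishing on the octad and constant elsewhere give `1` or the involution. -/
theorem proj_signAut_const {w : GolayPt → ZMod 2} (hw : w ∈ golayCode) (h0 : ∀ p ∈ O, w p = 0)
    {k : ZMod 2} (hk : ∀ p, p ∉ O → w p = k) :
    proj (signAut w hw) = 1 ∨ proj (signAut w hw) = zel := by
  have hz : ∀ z : ZMod 2, z = 0 ∨ z = 1 := by decide
  rcases hz k with rfl | rfl
  · left
    rw [show signAut w hw = 1 from act_eq_of_forall fun x hx => ?_, map_one]
    rw [act_signAut hw hx, one_act]
    funext p
    by_cases hp : p ∈ O <;> simp [signFun, hp, h0, hk]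
  · right
    rw [show signAut w hw = negOne * e0 from act_eq_of_forall fun x hx => ?_, map_mul, proj_negOne,
      one_mul, zel]
    rw [act_signAut hw hx, mul_act, act_negOne (isLeech_act e0 hx), e0, act_signAut _ hx]
    funext p
    by_cases hp : p ∈ O <;> simp [signFun, hp, h0, hk]

/-- Elements of the kernel have a representative vanishing on the octad. -/
theorem exists_mm {x : C1} (hx : x ∈ phi.ker) :
    ∃ σ, ∃ hσ : σ ∈ H11.fixM24 O, ∃ c, ∃ hc : c ∈ golayCode, (∀ p ∈ O, c p = 0) ∧
      x = mm hσ hc := by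
  obtain ⟨g, rfl⟩ := theta_surjective x
  obtain ⟨σ, hσ, c, hc, e, hfix, hcon⟩ := ker_eq_mono (theta_mem_ker.1 hx)
  have hz : ∀ z : ZMod 2, z = 0 ∨ z = 1 := by decide
  rcases hz (c (emb 0)) with h | h
  · refine ⟨σ, hfix, c, hc, fun p hp => (hcon p hp _ (emb_mem 0)).trans h, Subtype.ext ?_⟩
    show proj g.1 = proj (monoAut σ _ c hc)
    rw [e]
  · refine ⟨σ, hfix, 1 + c, add_mem one_mem_golayCode hc, fun p hp => ?_, Subtype.ext ?_⟩
    · simp [(hcon p hp _ (emb_mem 0)).trans h, CharTwo.add_self_eq_zero]
    · show proj g.1 = proj (monoAut σ _ (1 + c) _)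
      rw [e, show monoAut σ _ (1 + c) (add_mem one_mem_golayCode hc) = negOne * monoAut σ hσ c hc by
        simp only [monoAut, negOne, ← mul_assoc, signAut_mul], map_mul, proj_negOne, one_mul]

theorem mm_mem {σ : Equiv.Perm GolayPt} (hσ : σ ∈ H11.fixM24 O) {c : GolayPt → ZMod 2}
    (hc : c ∈ golayCode) (h0 : ∀ p ∈ O, c p = 0) : mm hσ hc ∈ phi.ker :=
  theta_mem_ker.2 (mono_mem_ker hσ hc fun p hp q hq => by rw [h0 p hp, h0 q hq])

/-- The central involution in the centraliser. -/
noncomputable def zc : C1 := ⟨zel, Subgroup.mem_centralizer_singleton_iff.2 rfl⟩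

theorem zc_central (y : C1) : y * zc = zc * y :=
  Subtype.ext (Subgroup.mem_centralizer_singleton_iff.1 y.2)

theorem zc_mem : zc ∈ phi.ker := by
  have h : zc = theta ⟨e0, Subgroup.mem_centralizer_singleton_iff.2 rfl⟩ := rfl
  rw [h, theta_mem_ker, mem_ker_psi]
  intro v
  show red (act e0 (lift8 v)) = v
  rw [act_e0_mem8 (mem8_lift v), red_neg (mem8_lift v), red_lift]

theorem pair_comm : ∀ x ∈ phi.ker, ∀ y ∈ phi.ker,
    x * y * x⁻¹ * y⁻¹ = 1 ∨ x * y * x⁻¹ * y⁻¹ = zc := by
  intro x hx y hy
  obtain ⟨σ, hσ, c, hc, hc0, rfl⟩ := exists_mm hx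
  obtain ⟨τ, hτ, d, hd, hd0, rfl⟩ := exists_mm hy
  have hst : σ * τ = τ * σ := by
    rw [← inv_eq_of_mul_eq_one_right (H11.mul_self_of_mem_fixM24 O_mem (mul_mem hσ hτ)),
      mul_inv_rev, inv_eq_of_mul_eq_one_right (H11.mul_self_of_mem_fixM24 O_mem hσ),
      inv_eq_of_mul_eq_one_right (H11.mul_self_of_mem_fixM24 O_mem hτ)]
  have hdσ := ((mem_M24_iff σ).1 hσ.1 d).1 hd
  have hcτ := ((mem_M24_iff τ).1 hτ.1 c).1 hc
  have hw : (c + fun i => c (τ.symm i)) + (d + fun i => d (σ.symm i)) ∈ golayCode :=
    add_mem (add_mem hc hcτ) (add_mem hd hdσ)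
  obtain ⟨k, hk⟩ := trans_const hc hc0 hτ
  obtain ⟨l, hl⟩ := trans_const hd hd0 hσ
  have hkey : monoAut σ hσ.1 c hc * monoAut τ hτ.1 d hd =
      signAut _ hw * (monoAut τ hτ.1 d hd * monoAut σ hσ.1 c hc) := by
    rw [mono_mul, mono_mul]
    refine act_eq_of_forall fun u hu => ?_
    rw [mul_act, act_monoAut _ _ hu, act_monoAut _ _ hu, act_signAut hw (IsLeech.signFun
      (add_mem hd hcτ) (hu.permFun (mul_mem hτ.1 hσ.1))), signFun_add, hst]
    congr 1
    funext i
    simp only [Pi.add_apply]
    have key : ∀ a b e f : ZMod 2, a + f = a + b + (e + f) + (e + b) := by decide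
    exact key _ _ _ _
  have hval : ((mm hσ hc * mm hτ hd * (mm hσ hc)⁻¹ * (mm hτ hd)⁻¹ : C1) : Spor.Co1) =
      proj (signAut _ hw) := by
    show proj (monoAut σ hσ.1 c hc) * proj (monoAut τ hτ.1 d hd) *
      (proj (monoAut σ hσ.1 c hc))⁻¹ * (proj (monoAut τ hτ.1 d hd))⁻¹ = _
    rw [← map_mul, hkey, map_mul, map_mul]
    group
  rcases proj_signAut_const hw (k := k + l)
    (fun p hp => by
      simp [hc0 p hp, hd0 p hp, hc0 _ ((symm_mem_iff hτ p).2 hp), hd0 _ ((symm_mem_iff hσ p).2 hp)])
    (fun p hp => by simp [symm_eq_self hτ, symm_eq_self hσ, hk p hp, hl p hp]) with h | h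
  · exact Or.inl (Subtype.ext (hval.trans h))
  · exact Or.inr (Subtype.ext (hval.trans h))

theorem pair_sq : ∀ x ∈ phi.ker, x * x = 1 ∨ x * x = zc := by
  intro x hx
  obtain ⟨σ, hσ, c, hc, hc0, rfl⟩ := exists_mm hx
  have hw : (c + fun i => c (σ.symm i)) ∈ golayCode :=
    add_mem hc (((mem_M24_iff σ).1 hσ.1 c).1 hc)
  obtain ⟨k, hk⟩ := trans_const hc hc0 hσ
  have hval : ((mm hσ hc * mm hσ hc : C1) : Spor.Co1) = proj (signAut _ hw) := by
    show proj (monoAut σ hσ.1 c hc) * proj (monoAut σ hσ.1 c hc) = _
    rw [← map_mul, mono_mul]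
    congr 1
    refine act_eq_of_forall fun u hu => ?_
    rw [act_monoAut _ _ hu, act_signAut hw hu]
    congr 1
    funext i
    show u ((σ * σ).symm i) = u i
    rw [H11.mul_self_of_mem_fixM24 O_mem hσ]
    rfl
  rcases proj_signAut_const hw (k := k)
    (fun p hp => by simp [hc0 p hp, hc0 _ ((symm_mem_iff hσ p).2 hp)])
    (fun p hp => by simp [symm_eq_self hσ, hk p hp]) with h | h
  · exact Or.inl (Subtype.ext (hval.trans h))
  · exact Or.inr (Subtype.ext (hval.trans h))

/-- Elements centralising the kernel are trivial or the involution. -/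
theorem centralize_ker {x : C1} (hx : ∀ y ∈ phi.ker, y * x = x * y) : x = 1 ∨ x = zc := by
  obtain ⟨g, rfl⟩ := theta_surjective x
  have hmod : ∀ (h : Ce), theta h ∈ phi.ker → h.1 * g.1 = g.1 * h.1 ∨
      h.1 * g.1 = negOne * (g.1 * h.1) := by
    intro h hh
    have e : proj (h.1 * g.1 * (g.1 * h.1)⁻¹) = 1 := by
      have := congrArg Subtype.val (hx _ hh)
      simp only [Subgroup.coe_mul, theta_val] at this
      rw [map_mul, map_inv, map_mul, map_mul, this, mul_inv_cancel]
    rcases proj_eq_one.1 e with e | e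
    · exact Or.inl (mul_inv_eq_one.1 e)
    · exact Or.inr (mul_inv_eq_iff_eq_mul.1 e)
  have hone : (1 : Equiv.Perm GolayPt) ∈ H11.fixM24 O := one_mem _
  -- sign changes vanishing on the octad commute exactly
  have hsign : ∀ d, ∀ hd : d ∈ golayCode, (∀ p ∈ O, d p = 0) → ∀ u, IsLeech u →
      signFun d (act g.1 u) = act g.1 (signFun d u) := by
    intro d hd hd0 u hu
    have hact : ∀ u, IsLeech u → act (monoAut 1 hone.1 d hd) u = signFun d u := fun u hu => by
      rw [act_monoAut _ _ hu]
      congr 1
    rcases hmod ⟨_, mono_mem_Ce hone hd⟩ (mm_mem hone hd hd0) with e | e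
    · have := congrArg (fun k => act k u) e
      simp only [mul_act, hact _ hu, hact _ (isLeech_act g.1 hu)] at this
      exact this
    · exfalso
      have hy := (mem8_eight (emb_mem 0)).act g.2
      have h1 : signFun d (act g.1 (eight (emb 0))) = act g.1 (eight (emb 0)) := by
        funext p
        by_cases hp : p ∈ O
        · simp [signFun, hd0 p hp]
        · simp [signFun, hy.2 p hp]
      have := congrArg (fun k => act k (eight (emb 0))) e
      simp only [mul_act, hact _ (isLeech_eight _), hact _ hy.1, signFun_eight,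
        hd0 _ (emb_mem 0), if_true, act_negOne hy.1, h1] at this
      have h2 : sqNorm (act g.1 (eight (emb 0))) = 0 := by
        have h3 : act g.1 (eight (emb 0)) = 0 := by
          funext i
          have := congrFun this i
          simp only [Pi.neg_apply] at this
          show _ = (0 : ℤ)
          omega
        rw [h3]; rfl
      rw [sqNorm_act _ (isLeech_eight _), sqNorm_eight] at h2
      norm_num at h2
  have hdiag : ∀ p, p ∉ O → act g.1 (eight p) = eight p ∨ act g.1 (eight p) = -eight p := by
    intro p hp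
    have hy := isLeech_act g.1 (isLeech_eight p)
    have hoff : ∀ q ∈ O, act g.1 (eight p) q = 0 := by
      refine off_of_act_e0 hy ?_
      rw [← mul_act, ← comm_of_mem g.2, mul_act, e0, act_signAut _ (isLeech_eight p),
        signFun_eight, if_pos]
      simp [hp]
    have hzero : ∀ q, q ≠ p → act g.1 (eight p) q = 0 := by
      intro q hqp
      by_cases hq : q ∈ O
      · exact hoff q hq
      obtain ⟨d, hd, hd0, hne⟩ := exists_separating hp hq (Ne.symm hqp)
      have := congrFun (hsign d hd hd0 _ (isLeech_eight p)) q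
      rw [signFun_eight] at this
      have hz : ∀ z : ZMod 2, z = 0 ∨ z = 1 := by decide
      rcases hz (d p) with a | a <;> rcases hz (d q) with b | b
      · exact absurd (a.trans b.symm) hne
      · simp [signFun, a, b] at this; omega
      · simp [signFun, a, b, act_neg _ (isLeech_eight p)] at this; omega
      · exact absurd (a.trans b.symm) hne
    have hn := sqNorm_act g.1 (isLeech_eight p)
    have hsum : sqNorm (act g.1 (eight p)) = act g.1 (eight p) p ^ 2 :=
      Fintype.sum_eq_single p fun q hq => by simp [hzero q hq]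
    rw [hsum, sqNorm_eight, show (64 : ℤ) = 8 ^ 2 by norm_num, sq_eq_sq_iff_eq_or_eq_neg] at hn
    rcases hn with h | h
    · left; funext i
      by_cases e : i = p
      · subst e; simpa [eight] using h
      · rw [hzero i e]; simp [eight, e]
    · right; funext i
      by_cases e : i = p
      · subst e; simpa [eight] using h
      · rw [hzero i e]; simp [eight, e]
  obtain ⟨q, hqO, hqD⟩ : ∃ q, q ∉ O ∧ q ∉ D := (by decide +kernel)
  have hcs : g.1 ∈ crossStab := by
    refine mem_crossStab_of_cross (p := q) ?_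
    rw [cross_eq_of_mem (x := eight q) ?_, cross_eight]
    rw [cross_eight, mem_stdCross_iff]
    exact ⟨q, hdiag q hqO⟩
  obtain ⟨σ, hσ, c, hc, e⟩ := exists_mono hcs
  have hfixoff : ∀ p, p ∉ O → σ p = p := by
    intro p hp
    have := hdiag p hp
    rw [e, act_monoAut hσ hc (isLeech_eight p), permFun_eight, signFun_eight] at this
    split at this <;> rcases this with h | h
    · exact eight_injective h
    · exact absurd h (eight_ne_neg _ _)
    · exact absurd h.symm (eight_ne_neg _ _)
    · exact eight_injective (neg_injective h)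
  have hσ1 : σ = 1 := H11.eq_one_of_mem_fixM24 D_mem
    (H11.mem_fixM24.2 ⟨hσ, fun x hx => hfixoff x (D_disjoint x hx)⟩) hqD (hfixoff q hqO)
  subst hσ1
  have hconst : ∀ p, p ∉ O → c p = c q := by
    intro p hp
    obtain ⟨τ, hτ, hτp⟩ := H11.exists_fixM24_apply O_mem hp hqO
    have hw := add_mem hc (((mem_M24_iff τ).1 hτ.1 c).1 hc)
    have hcomm := hmod ⟨_, mono_mem_Ce hτ (zero_mem golayCode)⟩
      (mm_mem hτ (zero_mem golayCode) fun _ _ => rfl)
    rw [e] at hcomm
    simp only [mono_mul, one_mul, mul_one] at hcomm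
    rcases hcomm with h | h
    · have h2 := congrFun (monoAut_injective h).2 q
      simp [← hτp, Equiv.Perm.one_symm] at h2
      rw [h2, hτp]
    · exfalso
      have hk : ∀ i ∈ O, c (τ.symm i) = c i := fun i hi => by
        rw [symm_eq_self hτ, (H11.mem_fixM24.1 hτ).2 i hi]
      have := congrArg (fun k => act k (eight (emb 0))) h
      simp only [mul_act, act_monoAut _ _ (isLeech_eight _), permFun_eight,
        (H11.mem_fixM24.1 hτ).2 _ (emb_mem 0)] at this
      rw [signFun_eight, signFun_eight, act_negOne (by split <;>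
        first | exact isLeech_eight _ | exact (isLeech_eight _).neg)] at this
      simp [hk _ (emb_mem 0), Equiv.Perm.one_symm] at this
      by_cases h0 : c (emb 0) = 0 <;> simp [h0] at this
      · exact eight_ne_neg _ _ this
      · exact eight_ne_neg _ _ this.symm
  -- identify the word
  have hw' : c + c q • (1 : GolayPt → ZMod 2) ∈ golayCode :=
    add_mem hc (Submodule.smul_mem _ _ one_mem_golayCode)
  have hsupp := word_on_O hw' fun p hp => by
    simp [hconst p hp, CharTwo.add_self_eq_zero]
  have hz : ∀ z : ZMod 2, z = 0 ∨ z = 1 := by decide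
  have hO : ∀ p ∈ O, c p = c (emb 0) := by
    intro p hp
    rcases hsupp with h | h <;>
    · have a := congrFun h p
      have b := congrFun h (emb 0)
      simp [hp, emb_mem] at a b
      exact add_right_cancel (a.trans b.symm)
  rcases hz (c (emb 0)) with h0 | h0
  · rcases proj_signAut_const hc (fun p hp => (hO p hp).trans h0) hconst with h | h
    · left; refine Subtype.ext ?_
      show proj g.1 = 1
      rw [e, show monoAut 1 hσ c hc = signAut c hc from act_eq_of_forall fun u hu => by
        rw [act_monoAut _ _ hu, act_signAut hc hu]; congr 1, h]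
    · right; refine Subtype.ext ?_
      show proj g.1 = zel
      rw [e, show monoAut 1 hσ c hc = signAut c hc from act_eq_of_forall fun u hu => by
        rw [act_monoAut _ _ hu, act_signAut hc hu]; congr 1, h]
  · have hc1 := add_mem one_mem_golayCode hc
    have hd : proj g.1 = proj (signAut (1 + c) hc1) := by
      rw [e, show signAut (1 + c) hc1 = negOne * monoAut 1 hσ c hc from
        act_eq_of_forall fun u hu => by
          rw [act_signAut _ hu, mul_act, act_monoAut _ _ hu, act_negOne ((hu.permFun hσ).signFun hc)]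
          funext i
          have hz' := hz (c i)
          rcases hz' with a | a <;>
            simp [signFun, permFun, a, Equiv.Perm.one_symm, CharTwo.add_self_eq_zero],
        map_mul, proj_negOne, one_mul]
    rcases proj_signAut_const hc1 (k := 1 + c q) (fun p hp => by
        simp [(hO p hp).trans h0, CharTwo.add_self_eq_zero])
      (fun p hp => by simp [hconst p hp]) with h | h
    · exact Or.inl (Subtype.ext (hd.trans h))
    · exact Or.inr (Subtype.ext (hd.trans h))

theorem finite_C1 : Finite C1 := Nat.finite_of_card_ne_zero (by rw [card_C1]; norm_num)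

theorem isExtraspecial_ker : Cfsg.IsExtraspecial 2 phi.ker := by
  haveI := finite_C1
  refine isExtraspecial_of_pair (z := zc) (IsPGroup.of_card card_phi_ker) zc_mem
    (fun h => zel_ne_one (congrArg Subtype.val h)) pair_comm pair_sq
    (fun x _ h => centralize_ker h) (fun y _ => zc_central y) ?_
  by_contra hne
  push Not at hne
  have hle : (phi.ker : Set C1) ⊆ {1, zc} := fun x hx =>
    centralize_ker fun y hy => hne y hy x hx
  have := Set.ncard_le_ncard hle (Set.toFinite _)
  have h2 : ({1, zc} : Set C1).ncard ≤ 2 := Set.ncard_insert_le _ _ |>.trans (by simp)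
  rw [← Nat.card_coe_set_eq] at this
  have h3 : Nat.card ↥(phi.ker : Set C1) = 2 ^ 9 := card_phi_ker
  omega

theorem simple_Om : IsSimpleGroup Om :=
  haveI := simple_Omega
  (H5.omegaEquiv Q8 (H5.coe_qPlus 4)).isSimpleGroup_congr.2 this

theorem fstar_C1 : Cfsg.generalizedFittingSubgroup C1 = phi.ker := by
  haveI := finite_C1
  have e := QuotientGroup.quotientKerEquivOfSurjective phi phi_surjective
  refine fstar_eq_of_simple_quotient phi.ker ?_ ?_ ?_ ?_
  · exact (IsPGroup.of_card (p := 2) card_phi_ker).isNilpotent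
  · intro x hx
    rcases centralize_ker (x := x) hx with rfl | rfl
    exacts [one_mem _, zc_mem]
  · haveI := simple_Om
    exact e.isSimpleGroup_congr.2 inferInstance
  · intro hcomm
    haveI := simple_Om
    let inst : CommGroup Om :=
      { (inferInstance : Group Om) with
        mul_comm := fun a b => by
          apply e.symm.injective
          rw [map_mul, map_mul]
          exact hcomm.is_comm.comm _ _ }
    have hp := (IsSimpleGroup.prime_card (α := Om) : (Nat.card Om).Prime)
    rw [card_Om] at hp
    norm_num at hp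

/-- A conjugate of the involution inside the kernel. -/
theorem exists_conj : ∃ g : Spor.Co1, (∃ hq : g * zel * g⁻¹ ∈ C1,
    (⟨g * zel * g⁻¹, hq⟩ : C1) ∈ phi.ker) ∧ g * zel * g⁻¹ ≠ zel := by
  obtain ⟨σ, hσ, hσO⟩ := H11.exists_smul_octad O_mem D_mem
  have hmap : ∀ i, σ.symm i ∈ O ↔ i ∈ D := fun i => by
    rw [← hσO, ← Finset.inv_smul_mem_iff]
    rfl
  have hconj : permAut σ hσ * e0 * (permAut σ hσ)⁻¹ = signAut (ind D) (octad_ind_mem D_mem) := by
    rw [e0, permAut_conj_signAut]
    refine act_eq_of_forall fun x hx => ?_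
    rw [act_signAut _ hx, act_signAut _ hx]
    funext i
    simp [signFun, ind, hmap i]
  have hz : proj (permAut σ hσ) * zel * (proj (permAut σ hσ))⁻¹ =
      proj (signAut (ind D) (octad_ind_mem D_mem)) := by
    rw [zel, ← map_inv, ← map_mul, ← map_mul, hconj]
  have hone : (1 : Equiv.Perm GolayPt) ∈ H11.fixM24 O := one_mem _
  have hmono : monoAut 1 hone.1 (ind D) (octad_ind_mem D_mem) =
      signAut (ind D) (octad_ind_mem D_mem) := act_eq_of_forall fun u hu => by
    rw [act_monoAut _ _ hu, act_signAut _ hu]; congr 1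
  have hmem := mm_mem hone (octad_ind_mem D_mem) fun p hp => by
    simp only [ind_apply, ite_eq_right_iff]
    exact fun h => absurd hp (D_disjoint p h)
  refine ⟨proj (permAut σ hσ), ?_, ?_⟩
  · rw [hz, ← hmono]
    exact ⟨(mm hone (octad_ind_mem D_mem)).2, hmem⟩
  · rw [hz]
    intro h
    obtain ⟨d, hdD, hd'⟩ : ∃ d, d ∈ D ∧ d ∉ O := (by decide +kernel)
    obtain ⟨q, hqO, hqD⟩ : ∃ q, q ∉ O ∧ q ∉ D := (by decide +kernel)
    have h1 : proj (signAut (ind D) (octad_ind_mem D_mem) * e0⁻¹) = 1 := by
      rw [map_mul, map_inv, h, zel, mul_inv_cancel]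
    rcases proj_eq_one.1 h1 with a | a <;> rw [mul_inv_eq_iff_eq_mul] at a
    · have := congrArg (fun k => act k (eight d) d) a
      simp only [one_mul, e0, act_signAut _ (isLeech_eight d)] at this
      simp [signFun, eight, hdD, hd'] at this
    · have := congrArg (fun k => act k (eight q) q) a
      simp only [mul_act, e0, act_signAut _ (isLeech_eight q),
        act_negOne ((isLeech_eight q).signFun (octad_ind_mem O_mem))] at this
      simp [signFun, eight, hqO, hqD] at this

end CoOne

end Cfsg.Agent.H18
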