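import Cfsg.Agent.H18.CoOne.Block

/-! Checked facts about the code relative to the octad. -/

set_option autoImplicit false

namespace Cfsg.Agent.H18.CoOne

open Cfsg.Agent Finset H14 H12

/-- The code words as masks from their first twelve bits. -/
theorem codeWord_low : ((List.range 4096).all fun i =>
    Nat.beq (Nat.land (codeWord i) 4095) i) = true := by decide +kernel

/-- The code word with given first twelve bits. -/
def cw (i : Fin 4096) : golayCode := ⟨H12.word (codeWord i.1), word_codeWord_mem _⟩

theorem mask_word {m : ℕ} (hm : m < 2 ^ 24) : mask (support₂ (H12.word m)) = m := by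
  rw [support_word, mask_fin hm]

theorem cw_bijective : Function.Bijective cw := by
  constructor
  · intro i j e
    have h := List.all_eq_true.1 codeWord_low
    have hi := Nat.eq_of_beq_eq_true (h i.1 (List.mem_range.2 i.2))
    have hj := Nat.eq_of_beq_eq_true (h j.1 (List.mem_range.2 j.2))
    have e' := congrArg (fun w : golayCode => mask (support₂ (w : GolayPt → ZMod 2))) e
    simp only [cw, mask_word (codeWord_lt _)] at e'
    exact Fin.ext (by rw [← hi, ← hj, e'])
  · intro w
    have hm := mask_lt (support₂ (w : GolayPt → ZMod 2))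
    have hw : H12.word (mask (support₂ (w : GolayPt → ZMod 2))) ∈ golayCode := by
      rw [word_support]; exact w.2
    have hc := (word_mem_iff hm).1 hw
    refine ⟨⟨Nat.land (mask (support₂ (w : GolayPt → ZMod 2))) 4095,
      Nat.lt_succ_of_le Nat.and_le_right⟩, Subtype.ext ?_⟩
    show H12.word (codeWord _) = _
    rw [Nat.eq_of_beq_eq_true hc, word_support]

theorem exists_cw (c : GolayPt → ZMod 2) (hc : c ∈ golayCode) :
    ∃ i < 4096, c = H12.word (codeWord i) := by
  obtain ⟨i, hi⟩ := cw_bijective.2 ⟨c, hc⟩
  exact ⟨i.1, i.2, (congrArg Subtype.val hi).symm⟩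

/-- Words vanishing on the octad separate the other points. -/
theorem sep_check : ((List.range 24).all fun n => (List.range 24).all fun m =>
    Nat.testBit 5279 n || Nat.testBit 5279 m || Nat.beq n m ||
    (((List.range 4096).filter fun i => Nat.beq (Nat.land (codeWord i) 5279) 0).any fun i =>
      Nat.testBit (codeWord i) n != Nat.testBit (codeWord i) m)) = true := by
  decide +kernel

theorem land_eq_zero_iff {m : ℕ} :
    Nat.land m 5279 = 0 ↔ ∀ p ∈ O, H12.word m p = 0 := by
  constructor
  · intro h p hp
    have hb : Nat.testBit 5279 (idx p) = true := mem_fin.1 hp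
    have h' := congrArg (fun t => Nat.testBit t (idx p)) h
    simp only [Nat.zero_testBit] at h'
    rw [show Nat.land m 5279 = m &&& 5279 from rfl, Nat.testBit_and, hb, Bool.and_true] at h'
    simp [H12.word, h']
  · intro h
    refine Nat.eq_of_testBit_eq fun n => ?_
    rw [show Nat.land m 5279 = m &&& 5279 from rfl, Nat.testBit_and, Nat.zero_testBit]
    by_cases hn : n < 24
    · by_cases hb : Nat.testBit 5279 n = true
      · have := h (pt n) ((pt_mem_fin hn).2 hb)
        simp only [H12.word, idx_pt hn] at this
        by_cases hm : m.testBit n = true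
        · rw [if_pos hm] at this; exact absurd this one_ne_zero
        · simp [hm]
      · simp [hb]
    · have : Nat.testBit 5279 n = false :=
        Nat.testBit_eq_false_of_lt (lt_of_lt_of_le (show 5279 < 2 ^ 24 by norm_num)
          (Nat.pow_le_pow_right (by norm_num) (not_lt.1 hn)))
      simp [this]

theorem exists_separating {p q : GolayPt} (hp : p ∉ O) (hq : q ∉ O) (hpq : p ≠ q) :
    ∃ c ∈ golayCode, (∀ r ∈ O, c r = 0) ∧ c p ≠ c q := by
  have h := List.all_eq_true.1 (List.all_eq_true.1 sep_check (idx p) (List.mem_range.2 (idx_lt p)))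
    (idx q) (List.mem_range.2 (idx_lt q))
  simp only [Bool.or_eq_true, List.any_eq_true, List.mem_filter, bne_iff_ne] at h
  rcases h with ((h | h) | h) | ⟨i, ⟨-, hi⟩, hne⟩
  · exact absurd (mem_fin.2 h) hp
  · exact absurd (mem_fin.2 h) hq
  · exact absurd (idx_injective (Nat.eq_of_beq_eq_true h)) hpq
  · refine ⟨_, word_codeWord_mem i, land_eq_zero_iff.1 (Nat.eq_of_beq_eq_true hi), fun e => hne ?_⟩
    simp only [H12.word] at e
    revert e
    cases Nat.testBit (codeWord i) (idx p) <;> cases Nat.testBit (codeWord i) (idx q) <;> simp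

/-- Translations act on words vanishing on the octad by constants. -/
theorem trans_check : (((List.range 4096).filter fun i =>
      Nat.beq (Nat.land (codeWord i) 5279) 0).all fun i =>
    H11.octad0Fix.all fun P => (List.range 24).all fun n =>
      Nat.testBit 5279 n || ((Nat.testBit (codeWord i) n != Nat.testBit (codeWord i) (app P n)) ==
        (Nat.testBit (codeWord i) 5 != Nat.testBit (codeWord i) (app P 5)))) = true := by
  decide +kernel

/-- An element fixing the octad pointwise changes such a word by a constant off the octad. -/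
theorem trans_const {c : GolayPt → ZMod 2} (hc : c ∈ golayCode) (h0 : ∀ p ∈ O, c p = 0)
    {σ : Equiv.Perm GolayPt} (hσ : σ ∈ H11.fixM24 O) :
    ∃ k : ZMod 2, ∀ p, p ∉ O → c p + c (σ p) = k := by
  obtain ⟨P, hP, rfl⟩ := H11.exists_of_mem_fixM24_octad0 hσ
  obtain ⟨i, hi, rfl⟩ := exists_cw c hc
  have hPp := (H11.m24Perms_mem P (by
    have hc' := H11.octad0Fix_check
    simp only [Bool.and_eq_true, List.all_eq_true, List.contains_iff_mem] at hc'
    exact (hc'.1 P hP).1)).1
  have h := List.all_eq_true.1 (List.all_eq_true.1 (List.all_eq_true.1 trans_check i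
    (List.mem_filter.2 ⟨List.mem_range.2 hi, by rw [land_eq_zero_iff.2 h0]; rfl⟩)) P hP)
  refine ⟨H12.word (codeWord i) (pt 5) + H12.word (codeWord i) (H12.permOf P (pt 5)), fun p hp => ?_⟩
  have h1 := h (idx p) (List.mem_range.2 (idx_lt p))
  rw [Bool.or_eq_true] at h1
  have h2 := h1.resolve_left fun e => hp (mem_fin.2 e)
  rw [beq_iff_eq] at h2
  conv_lhs => rw [← pt_idx p]
  rw [permOf_pt hPp (idx_lt p), permOf_pt hPp (by norm_num)]
  simp only [H12.word, idx_pt (idx_lt p), idx_pt (app_lt hPp (idx_lt p)),
    idx_pt (show 5 < 24 by norm_num), idx_pt (app_lt hPp (show 5 < 24 by norm_num))]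
  revert h2
  cases Nat.testBit (codeWord i) (idx p) <;> cases Nat.testBit (codeWord i) (app P (idx p)) <;>
    cases Nat.testBit (codeWord i) 5 <;> cases Nat.testBit (codeWord i) (app P 5) <;>
    simp <;> decide

/-- The words constant on the octad, counted. -/
theorem const_check : ((List.range 4096).filter fun i =>
    Nat.beq (Nat.land (codeWord i) 5279) 0 || Nat.beq (Nat.land (codeWord i) 5279) 5279).length
    = 64 := by
  decide +kernel

theorem land_eq_self_iff {m : ℕ} :
    Nat.land m 5279 = 5279 ↔ ∀ p ∈ O, H12.word m p = 1 := by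
  constructor
  · intro h p hp
    have hb : Nat.testBit 5279 (idx p) = true := mem_fin.1 hp
    have h' : Nat.testBit (m &&& 5279) (idx p) = true := by
      rw [show m &&& 5279 = 5279 from h, hb]
    rw [Nat.testBit_and, hb, Bool.and_true] at h'
    simp [H12.word, h']
  · intro h
    refine Nat.eq_of_testBit_eq fun n => ?_
    rw [show Nat.land m 5279 = m &&& 5279 from rfl, Nat.testBit_and]
    by_cases hb : Nat.testBit 5279 n = true
    · have hn : n < 24 := by
        by_contra hn
        rw [Nat.testBit_eq_false_of_lt (lt_of_lt_of_le (show 5279 < 2 ^ 24 by norm_num)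
          (Nat.pow_le_pow_right (by norm_num) (not_lt.1 hn)))] at hb
        exact Bool.false_ne_true hb
      have := h (pt n) ((pt_mem_fin hn).2 hb)
      simp only [H12.word, idx_pt hn] at this
      by_cases hm : m.testBit n = true
      · simp [hm, hb]
      · rw [if_neg hm] at this; exact absurd this zero_ne_one
    · simp [hb]

/-- Counting through an enumeration. -/
theorem card_filter_range {α : Type*} {N : ℕ} (f : Fin N → α) (hf : Function.Bijective f)
    (P : α → Prop) (p : ℕ → Bool) (key : ∀ i : Fin N, P (f i) ↔ p i.1 = true) :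
    Nat.card {a // P a} = ((List.range N).filter p).length := by
  rw [← List.toFinset_card_of_nodup (List.nodup_range.filter _), ← Nat.card_eq_finsetCard]
  refine (Nat.card_congr (Equiv.ofBijective
    (fun i => (⟨f ⟨i.1, List.mem_range.1 (List.mem_filter.1 (List.mem_toFinset.1 i.2)).1⟩,
      (key _).2 (List.mem_filter.1 (List.mem_toFinset.1 i.2)).2⟩ : {a // P a}))
    ⟨fun i j e => ?_, fun c => ?_⟩)).symm
  · exact Subtype.ext (congrArg Fin.val (hf.1 (congrArg Subtype.val e)) :)
  · obtain ⟨i, hi⟩ := hf.2 c.1
    refine ⟨⟨i.1, List.mem_toFinset.2 (List.mem_filter.2 ⟨List.mem_range.2 i.2, (key i).1 ?_⟩)⟩,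
      Subtype.ext hi⟩
    rw [hi]
    exact c.2

/-- Number of words constant on the octad. -/
theorem card_const :
    Nat.card {c : golayCode // ∀ p ∈ O, ∀ q ∈ O, (c : GolayPt → ZMod 2) p = (c : GolayPt → ZMod 2) q}
      = 64 := by
  refine Eq.trans ?_ const_check
  have key : ∀ i : Fin 4096, (∀ p ∈ O, ∀ q ∈ O, H12.word (codeWord i.1) p = H12.word (codeWord i.1) q) ↔
      (Nat.beq (Nat.land (codeWord i.1) 5279) 0 ||
        Nat.beq (Nat.land (codeWord i.1) 5279) 5279) = true := by
    intro i
    rw [Bool.or_eq_true, Nat.beq_eq, Nat.beq_eq, land_eq_zero_iff, land_eq_self_iff]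
    constructor
    · intro h
      have hz : ∀ z : ZMod 2, z = 0 ∨ z = 1 := by decide
      rcases hz (H12.word (codeWord i.1) (emb 0)) with e | e
      · exact Or.inl fun p hp => (h p hp _ (emb_mem 0)).trans e
      · exact Or.inr fun p hp => (h p hp _ (emb_mem 0)).trans e
    · rintro (h | h) p hp q hq <;> rw [h p hp, h q hq]
  exact card_filter_range cw cw_bijective _ _ key

/-- An octad disjoint from the octad. -/
def D : Finset GolayPt := H12.fin 1009728

theorem D_mem : D ∈ octads := (fin_mem_octads (by norm_num)).2 (by decide +kernel)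

theorem D_disjoint : ∀ p, p ∈ D → p ∉ O := by decide +kernel

/-- There are 135 singular points. -/
theorem card_singular :
    (univ.filter fun v : F8 => v ≠ 0 ∧ Cfsg.quadFormPlus 4 (ZMod 2) v = 0).card = 135 := by
  decide +kernel

/-- The tetrads through the first point. -/
theorem card_tetrads : ((O.powersetCard 4).filter fun T => emb 0 ∈ T).card = 35 := by
  decide +kernel

end Cfsg.Agent.H18.CoOne
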